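import Cfsg.Agent.Lib.H04.O5.Base
import Cfsg.Agent.Lib.H04.Chev.Simple
import Cfsg.Agent.Lib.H04.Chev.Tab.B2_all
import Cfsg.Agent.Lib.H04.Chev.Tab.B2_all2
import Cfsg.Agent.Lib.H04.Chev.Tab.B2_all3
import Cfsg.Agent.Lib.H04.Chev.Tab.B2_perf

/-!
# The representation of the Lie algebra of type `B₂` on the module of dimension five

The map `iot` from the coordinate module of `B₂` to the `5 × 5` matrices is equivariant: the root element `x_k(t)`
acts as the conjugation by the Siegel transformation of the root.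
-/

set_option autoImplicit false
set_option linter.style.longLine false
set_option linter.unusedSimpArgs false
set_option linter.unusedSectionVars false
set_option linter.unusedVariables false
set_option maxRecDepth 100000

open Matrix Cfsg.Lie Cfsg.Agent.H04.Chev

namespace Cfsg.Agent.H04.O5

/-- the Siegel transformation of a root: the long roots come with a second label, and a sign -/
def rt : ℕ → Option La × La × ℤ
  | 0 => (some ir0, ir1, -1)
  | 1 => (none, ir0, -1)
  | 2 => (none, ir1, -1)
  | 3 => (some ir0, il1, -1)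
  | 4 => (some il0, ir1, 1)
  | 5 => (none, il1, 1)
  | 6 => (none, il0, 1)
  | 7 => (some il0, il1, 1)
  | _ => (none, il0, 0)

def lK (k : ℕ) : La := (rt k).2.1
def sg (k : ℕ) : ℤ := (rt k).2.2

def uZ (k : ℕ) (a : Ix) : ℤ :=
  match (rt k).1 with
  | some p => if a = .inr p then 1 else 0
  | none => if a = .inl () then 1 else 0

def buZ (k : ℕ) (b : Ix) : ℤ :=
  match (rt k).1 with
  | some p => if b = .inr (op p) then 1 else 0
  | none => if b = .inl () then 2 else 0

def quZ (k : ℕ) : ℤ :=
  match (rt k).1 with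
  | some _ => 0
  | none => 1

def dd (x y : Ix) : ℤ := if x = y then 1 else 0

def dgZ (i : ℕ) (a : Ix) : ℤ :=
  if i = 0 then (if a = .inr il1 then 2 else if a = .inr ir1 then -2 else 0)
  else (if a = .inr il0 then 1 else if a = .inr il1 then -1 else if a = .inr ir0 then -1 else if a = .inr ir1 then 1 else 0)

/-- the image of the basis vector of code `c`, with integer entries -/
def iotaZ (c : ℕ) : Matrix Ix Ix ℤ := fun a b =>
  if c < 8 then sg c * (uZ c a * dd b (.inr (op (lK c))) - dd a (.inr (lK c)) * buZ c b)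
  else if a = b then dgZ (c - 8) a else 0

/-- the part of degree two of a root element, with integer entries -/
def PZ (k : ℕ) : Matrix Ix Ix ℤ := fun a b => -(quZ k * dd a (.inr (lK k)) * dd b (.inr (op (lK k))))

/-- the matrix product -/
def mulZ (A B : Matrix Ix Ix ℤ) : Matrix Ix Ix ℤ := fun a b =>
  A a (.inl ()) * B (.inl ()) b + A a (.inr il0) * B (.inr il0) b + A a (.inr il1) * B (.inr il1) b
    + A a (.inr ir0) * B (.inr ir0) b + A a (.inr ir1) * B (.inr ir1) b

lemma mul_eq_mulZ (A B : Matrix Ix Ix ℤ) : A * B = mulZ A B := by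
  ext a b
  simp only [Matrix.mul_apply, mulZ, Fintype.sum_sum_type, Fin.sum_univ_two, Finset.univ_unique, Finset.sum_singleton, dotProduct]
  simp only [PUnit.default_eq_unit]
  ring

/-- the integer of a column term -/
def zz (y : CT) : ℤ := if y.neg then -(y.mag : ℤ) else (y.mag : ℤ)

/-- the part of degree `K` of a column, as an entry of a matrix -/
def rhsE (K : ℕ) : List CT → Ix → Ix → ℤ
  | [], _, _ => 0
  | y :: ys, a, b => (if y.k = K then zz y * iotaZ y.row a b else 0) + rhsE K ys a b

def labs : List Ix := [Sum.inl (), Sum.inr il0, Sum.inr il1, Sum.inr ir0, Sum.inr ir1]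

lemma mem_labs (a : Ix) : a ∈ labs := by
  rcases a with ⟨⟩ | a
  · simp [labs]
  · rcases a with i | i <;> fin_cases i <;> simp [labs]

noncomputable def colD (k c : ℕ) : List CT := TB2.T.P.col k c

noncomputable def chk1 (k c : ℕ) (a b : Ix) : Bool :=
  let N := iotaZ k
  let A := iotaZ c
  let P := PZ k
  decide (mulZ N A a b - mulZ A N a b = rhsE 1 (colD k c) a b) &&
  decide (mulZ P A a b + mulZ A P a b - mulZ (mulZ N A) N a b = rhsE 2 (colD k c) a b) &&
  decide (mulZ (mulZ N A) P a b - mulZ (mulZ P A) N a b = 0) &&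
  decide (mulZ (mulZ P A) P a b = 0)

noncomputable def chk2 (k c : ℕ) : Bool := (colD k c).all fun y => (decide (y.k = 1) || decide (y.k = 2)) && decide (y.row < 10)

noncomputable def chkAll : Bool :=
  (List.range 8).all fun k => (List.range 10).all fun c => chk2 k c && labs.all fun a => labs.all fun b => chk1 k c a b

set_option maxHeartbeats 0 in
theorem chkAll_true : chkAll = true := by decide +kernel

/-- the simple roots -/
def simL (i : ℕ) : ℕ := ([5, 4] : List ℕ).getD i 0

def chkH : Bool :=
  (List.range 2).all fun i => labs.all fun a => labs.all fun b =>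
    decide (iotaZ (8 + i) a b = mulZ (iotaZ (simL i)) (iotaZ (7 - simL i)) a b - mulZ (iotaZ (7 - simL i)) (iotaZ (simL i)) a b)

set_option maxHeartbeats 0 in
theorem chkH_true : chkH = true := by decide +kernel

/-- the part of degree two of a root element is a product of images of long root vectors -/
def prT : ℕ → ℕ × ℕ × ℤ
  | 1 => (3, 0, 1)
  | 2 => (4, 0, -1)
  | 5 => (7, 3, -1)
  | 6 => (7, 4, 1)
  | _ => (0, 0, 0)

def chkP : Bool :=
  (List.range 8).all fun k => decide ((prT k).1 < 8) && decide ((rt (prT k).1).1 ≠ none) && decide ((prT k).2.1 < 8) && decide ((rt (prT k).2.1).1 ≠ none) &&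
    labs.all fun a => labs.all fun b => decide (PZ k a b = (prT k).2.2 * mulZ (iotaZ (prT k).1) (iotaZ (prT k).2.1) a b)

set_option maxHeartbeats 0 in
theorem chkP_true : chkP = true := by decide +kernel

lemma chk_spec {k c : ℕ} (hk : k < 8) (hc : c < 10) :
    (∀ y ∈ colD k c, (y.k = 1 ∨ y.k = 2) ∧ y.row < 10) ∧
    (∀ a b, mulZ (iotaZ k) (iotaZ c) a b - mulZ (iotaZ c) (iotaZ k) a b = rhsE 1 (colD k c) a b) ∧
    (∀ a b, mulZ (PZ k) (iotaZ c) a b + mulZ (iotaZ c) (PZ k) a b - mulZ (mulZ (iotaZ k) (iotaZ c)) (iotaZ k) a b = rhsE 2 (colD k c) a b) ∧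
    (∀ a b, mulZ (mulZ (iotaZ k) (iotaZ c)) (PZ k) a b - mulZ (mulZ (PZ k) (iotaZ c)) (iotaZ k) a b = 0) ∧
    (∀ a b, mulZ (mulZ (PZ k) (iotaZ c)) (PZ k) a b = 0) := by
  have h := chkAll_true
  simp only [chkAll, List.all_eq_true, List.mem_range, Bool.and_eq_true] at h
  obtain ⟨h2, h1⟩ := h k hk c hc
  have h3 : ∀ a b, _ := fun a b => h1 a (mem_labs a) b (mem_labs b)
  simp only [chk1, Bool.and_eq_true, decide_eq_true_eq] at h3
  refine ⟨?_, fun a b => (h3 a b).1.1.1, fun a b => (h3 a b).1.1.2, fun a b => (h3 a b).1.2, fun a b => (h3 a b).2⟩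
  simp only [chk2, List.all_eq_true, Bool.and_eq_true, Bool.or_eq_true, decide_eq_true_eq] at h2
  exact h2

lemma chkH_spec {i : ℕ} (hi : i < 2) (a b : Ix) :
    iotaZ (8 + i) a b = mulZ (iotaZ (simL i)) (iotaZ (7 - simL i)) a b - mulZ (iotaZ (7 - simL i)) (iotaZ (simL i)) a b := by
  have h := chkH_true
  simp only [chkH, List.all_eq_true, List.mem_range, decide_eq_true_eq] at h
  exact h i hi a (mem_labs a) b (mem_labs b)

lemma chkP_spec {k : ℕ} (hk : k < 8) :
    (prT k).1 < 8 ∧ (rt (prT k).1).1 ≠ none ∧ (prT k).2.1 < 8 ∧ (rt (prT k).2.1).1 ≠ none ∧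
    ∀ a b, PZ k a b = (prT k).2.2 * mulZ (iotaZ (prT k).1) (iotaZ (prT k).2.1) a b := by
  have h := chkP_true
  simp only [chkP, List.all_eq_true, List.mem_range, Bool.and_eq_true, decide_eq_true_eq] at h
  obtain ⟨⟨⟨⟨a1, a2⟩, a3⟩, a4⟩, a5⟩ := h k hk
  exact ⟨a1, a2, a3, a4, fun a b => a5 a (mem_labs a) b (mem_labs b)⟩

section Fld
variable {F : Type*} [Field F]

/-- the cast of integer matrices -/
noncomputable def phi (F : Type*) [Field F] : Matrix Ix Ix ℤ →+* Matrix Ix Ix F := (Int.castRingHom F).mapMatrix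

lemma phi_apply (A : Matrix Ix Ix ℤ) (a b : Ix) : phi F A a b = ((A a b : ℤ) : F) := by
  simp [phi]

/-- the image of a basis vector -/
noncomputable def iotaF (F : Type*) [Field F] (c : ℕ) : Matrix Ix Ix F := phi F (iotaZ c)

/-- the part of degree two of a root element -/
noncomputable def PF (F : Type*) [Field F] (k : ℕ) : Matrix Ix Ix F := phi F (PZ k)

/-- the part of degree `K` of a column -/
noncomputable def sumK (K : ℕ) (l : List CT) : Matrix Ix Ix F :=
  (l.map fun y => if y.k = K then sv F y.neg y.mag • iotaF F y.row else 0).sum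

lemma zz_cast (y : CT) : ((zz y : ℤ) : F) = sv F y.neg y.mag := by
  unfold zz sv
  cases y.neg <;> simp

/-- the part of degree `K` of a column, as a matrix -/
def rhsM (K : ℕ) (l : List CT) : Matrix Ix Ix ℤ := fun a b => rhsE K l a b

lemma phi_rhs (K : ℕ) (l : List CT) : phi F (rhsM K l) = sumK K l := by
  induction l with
  | nil =>
    ext a b
    rw [phi_apply]
    simp [rhsM, rhsE, sumK]
  | cons y ys ih =>
    have e : sumK K (y :: ys) = (if y.k = K then sv F y.neg y.mag • iotaF F y.row else 0) + sumK (F := F) K ys := by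
      simp [sumK]
    rw [e, ← ih]
    ext a b
    rw [Matrix.add_apply, phi_apply, phi_apply]
    simp only [rhsM, rhsE]
    rw [Int.cast_add]
    congr 1
    by_cases h : y.k = K
    · simp [h, iotaF, phi_apply, zz_cast, Matrix.smul_apply]
    · simp [h]

lemma comm1 {k c : ℕ} (hk : k < 8) (hc : c < 10) :
    iotaF F k * iotaF F c - iotaF F c * iotaF F k = sumK 1 (colD k c) := by
  rw [← phi_rhs]
  unfold iotaF
  rw [← map_mul, ← map_mul, ← map_sub]
  congr 1
  ext a b
  rw [Matrix.sub_apply, mul_eq_mulZ, mul_eq_mulZ]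
  exact (chk_spec hk hc).2.1 a b

lemma comm2 {k c : ℕ} (hk : k < 8) (hc : c < 10) :
    PF F k * iotaF F c + iotaF F c * PF F k - iotaF F k * iotaF F c * iotaF F k = sumK 2 (colD k c) := by
  rw [← phi_rhs]
  unfold iotaF PF
  rw [← map_mul, ← map_mul, ← map_mul, ← map_mul, ← map_add, ← map_sub]
  congr 1
  ext a b
  rw [Matrix.sub_apply, Matrix.add_apply, mul_eq_mulZ, mul_eq_mulZ, mul_eq_mulZ, mul_eq_mulZ]
  exact (chk_spec hk hc).2.2.1 a b

lemma comm3 {k c : ℕ} (hk : k < 8) (hc : c < 10) :
    iotaF F k * iotaF F c * PF F k - PF F k * iotaF F c * iotaF F k = 0 := by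
  unfold iotaF PF
  rw [← map_mul, ← map_mul, ← map_mul, ← map_mul, ← map_sub]
  have : iotaZ k * iotaZ c * PZ k - PZ k * iotaZ c * iotaZ k = 0 := by
    ext a b
    rw [Matrix.sub_apply, mul_eq_mulZ, mul_eq_mulZ, mul_eq_mulZ, mul_eq_mulZ]
    exact (chk_spec hk hc).2.2.2.1 a b
  rw [this, map_zero]

lemma comm4 {k c : ℕ} (hk : k < 8) (hc : c < 10) :
    PF F k * iotaF F c * PF F k = 0 := by
  unfold iotaF PF
  rw [← map_mul, ← map_mul]
  have : PZ k * iotaZ c * PZ k = 0 := by
    ext a b
    rw [mul_eq_mulZ, mul_eq_mulZ]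
    exact (chk_spec hk hc).2.2.2.2 a b
  rw [this, map_zero]

/-- the column as a matrix -/
noncomputable def sumCT (t : F) (l : List CT) : Matrix Ix Ix F := (l.map fun y => y.val t • iotaF F y.row).sum

lemma sumCT_split (t : F) (l : List CT) (h : ∀ y ∈ l, y.k = 1 ∨ y.k = 2) :
    sumCT t l = t • sumK 1 l + t ^ 2 • sumK 2 l := by
  induction l with
  | nil => simp [sumCT, sumK]
  | cons y ys ih =>
    have h1 := ih (fun z hz => h z (List.mem_cons_of_mem _ hz))
    have e1 : sumCT t (y :: ys) = y.val t • iotaF F y.row + sumCT t ys := by simp [sumCT]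
    have e2 : ∀ K, sumK K (y :: ys) = (if y.k = K then sv F y.neg y.mag • iotaF F y.row else 0) + sumK (F := F) K ys := by
      intro K
      simp [sumK]
    rw [e1, e2, e2, h1, smul_add, smul_add]
    have hv : y.val t = sv F y.neg y.mag * t ^ y.k := rfl
    rcases h y List.mem_cons_self with h2 | h2
    · simp only [h2, hv, if_true, show ¬ (1 = 2) by decide, if_false, smul_zero, zero_add, pow_one]
      rw [smul_smul, mul_comm]
      abel
    · simp only [h2, hv, if_true, show ¬ (2 = 1) by decide, if_false, smul_zero, zero_add]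
      rw [smul_smul, mul_comm]
      abel

/-- conjugation of the image of a basis vector -/
lemma conj_basis {k c : ℕ} (hk : k < 8) (hc : c < 10) (t : F) :
    (1 + t • iotaF F k + t ^ 2 • PF F k) * iotaF F c * (1 + (-t) • iotaF F k + t ^ 2 • PF F k) = iotaF F c + sumCT t (colD k c) := by
  rw [sumCT_split t _ (fun y hy => ((chk_spec hk hc).1 y hy).1), ← comm1 hk hc, ← comm2 hk hc]
  have e1 : (-t) • iotaF F k = -(t • iotaF F k) := neg_smul t _
  rw [e1]
  have h3 := comm3 (F := F) hk hc
  have h4 := comm4 (F := F) hk hc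
  generalize iotaF F c = A at *
  generalize iotaF F k = N at *
  generalize PF F k = P at *
  have e2gen : ∀ X Y : Matrix Ix Ix F, (1 + X + Y) * A * (1 + -X + Y) =
      A + (X * A - A * X) + (Y * A + A * Y - X * A * X) + (X * A * Y - Y * A * X) + Y * A * Y := by
    intro X Y
    noncomm_ring
  have e2 := e2gen (t • N) (t ^ 2 • P)
  have e3 : (t • N) * A * (t ^ 2 • P) - (t ^ 2 • P) * A * (t • N) = 0 := by
    have : (t • N) * A * (t ^ 2 • P) - (t ^ 2 • P) * A * (t • N) = (t * t ^ 2) • (N * A * P - P * A * N) := by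
      simp only [smul_mul_assoc, mul_smul_comm, smul_smul, smul_sub]
      congr 2 <;> ring
    rw [this, h3, smul_zero]
  have e4 : (t ^ 2 • P) * A * (t ^ 2 • P) = 0 := by
    simp only [smul_mul_assoc, mul_smul_comm, smul_smul, h4, smul_zero]
  have e5 : (t • N) * A * (t • N) = t ^ 2 • (N * A * N) := by
    simp only [smul_mul_assoc, mul_smul_comm, smul_smul, pow_two]
  rw [e2, e3, e4, e5]
  simp only [smul_mul_assoc, mul_smul_comm, smul_sub, smul_add]
  abel

/-- the map from the coordinate module to the matrices -/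
noncomputable def iot (v : chevB2.Idx → F) : Matrix Ix Ix F := ∑ i, v i • iotaF F (code chevB2 i)

lemma iot_single (i : chevB2.Idx) : iot (Pi.single i (1 : F)) = iotaF F (code chevB2 i) := by
  unfold iot
  rw [Finset.sum_eq_single i]
  · simp
  · intro j _ hj
    simp [Pi.single_apply, hj]
  · simp

lemma col_sum (l : List CT) (hl : ∀ y ∈ l, y.row < 10) (t : F) :
    ∑ row : chevB2.Idx, colVal t l (code chevB2 row) • iotaF F (code chevB2 row) = sumCT t l := by
  induction l with
  | nil => simp [sumCT]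
  | cons y ys ih =>
    have h1 := ih (fun z hz => hl z (List.mem_cons_of_mem _ hz))
    have e1 : sumCT t (y :: ys) = y.val t • iotaF F y.row + sumCT t ys := by simp [sumCT]
    rw [e1, ← h1]
    simp only [colVal_cons, add_smul]
    rw [Finset.sum_add_distrib]
    congr 1
    obtain ⟨i, hi⟩ := exists_code chevB2 (c := y.row) (by have := hl y List.mem_cons_self; exact this)
    rw [Finset.sum_eq_single i]
    · simp [hi]
    · intro j _ hj
      have : y.row ≠ code chevB2 j := fun e => hj (code_inj chevB2 (hi.trans e)).symm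
      simp [this]
    · simp

lemma col_eq (r : Fin chevB2.nroots) (col : chevB2.Idx) (t : F) :
    ∑ row : chevB2.Idx, chevB2.xMat F r t row col • iotaF F (code chevB2 row) =
      (1 + t • iotaF F r.val + t ^ 2 • PF F r.val) * iotaF F (code chevB2 col) * (1 + (-t) • iotaF F r.val + t ^ 2 • PF F r.val) := by
  have hr : r.val < 8 := r.isLt
  have hc : code chevB2 col < 10 := code_lt chevB2 col
  have hcol : colD r.val (code chevB2 col) = extraSpec chevB2 r.val (code chevB2 col) := TB2.checks.col r.val r.isLt _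
  rw [conj_basis hr hc]
  simp only [xMat_entry, add_smul]
  rw [Finset.sum_add_distrib, ← hcol, col_sum _ (fun y hy => ((chk_spec hr hc).1 y hy).2)]
  congr 1
  rw [Finset.sum_eq_single col]
  · simp
  · intro j _ hj
    have : ¬ code chevB2 col = code chevB2 j := fun e => hj (code_inj chevB2 e).symm
    simp [this]
  · simp

/-- the equivariance of `iot` -/
theorem iot_x (r : Fin chevB2.nroots) (t : F) (v : chevB2.Idx → F) :
    iot (chevB2.xMat F r t *ᵥ v) = (1 + t • iotaF F r.val + t ^ 2 • PF F r.val) * iot v * (1 + (-t) • iotaF F r.val + t ^ 2 • PF F r.val) := by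
  unfold iot
  simp only [Matrix.mulVec, dotProduct, Finset.sum_smul, Finset.mul_sum, Finset.sum_mul, mul_smul_comm, smul_mul_assoc]
  rw [Finset.sum_comm]
  refine Finset.sum_congr rfl fun col _ => ?_
  rw [← col_eq r col t, Finset.smul_sum]
  refine Finset.sum_congr rfl fun row _ => ?_
  rw [smul_smul, mul_comm]

end Fld

end Cfsg.Agent.H04.O5
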