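import Cfsg.Prelude.Def_Classical

/-!
# The commutator subgroup of the isometry group of `x₀² + x₁y₁ + x₂y₂`

It is generated by the Siegel transformations of basis vectors, over every field with more than two elements.
-/

set_option autoImplicit false
set_option linter.style.longLine false
set_option linter.unusedSimpArgs false
set_option linter.unusedSectionVars false
set_option linter.unusedVariables false
set_option maxRecDepth 100000

open Matrix
open scoped commutatorElement

namespace Cfsg.Agent.H04.O5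

variable {F : Type*} [Field F]

/-- the labels of the hyperbolic basis vectors -/
abbrev La : Type := Fin 2 ⊕ Fin 2

/-- the coordinates -/
abbrev Ix : Type := Unit ⊕ La

/-- the isometry group -/
abbrev OG (F : Type*) [Field F] : Type _ := ↥(Cfsg.isometryGroup F (Cfsg.quadFormOdd 2 F))

/-- the opposite label -/
def op : La → La := Sum.swap

@[simp] lemma op_op (l : La) : op (op l) = l := Sum.swap_swap l
@[simp] lemma op_inl (i : Fin 2) : op (Sum.inl i) = Sum.inr i := rfl
@[simp] lemma op_inr (i : Fin 2) : op (Sum.inr i) = Sum.inl i := rfl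

lemma op_ne (l : La) : op l ≠ l := by
  rcases l with i | i <;> simp

lemma op_inj {a b : La} (h : op a = op b) : a = b := by
  have := congrArg op h
  simpa using this

/-- the quadratic form -/
abbrev Q (v : Ix → F) : F := Cfsg.quadFormOdd 2 F v

/-- the bilinear form -/
def B (u v : Ix → F) : F :=
  2 * u (.inl ()) * v (.inl ()) + u (.inr (.inl 0)) * v (.inr (.inr 0)) + v (.inr (.inl 0)) * u (.inr (.inr 0))
    + u (.inr (.inl 1)) * v (.inr (.inr 1)) + v (.inr (.inl 1)) * u (.inr (.inr 1))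

lemma Q_eq (v : Ix → F) : Q v = v (.inl ()) ^ 2 + v (.inr (.inl 0)) * v (.inr (.inr 0)) + v (.inr (.inl 1)) * v (.inr (.inr 1)) := by
  simp only [Q, Cfsg.quadFormOdd, Fin.sum_univ_two]
  ring

lemma polar (u v : Ix → F) : Q (u + v) = Q u + Q v + B u v := by
  simp only [Q_eq, B, Pi.add_apply]
  ring

lemma B_comm (u v : Ix → F) : B u v = B v u := by
  simp only [B]
  ring

lemma B_add_left (u v w : Ix → F) : B (u + v) w = B u w + B v w := by
  simp only [B, Pi.add_apply]
  ring

lemma B_add_right (u v w : Ix → F) : B w (u + v) = B w u + B w v := by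
  simp only [B, Pi.add_apply]
  ring

lemma B_smul_left (c : F) (u w : Ix → F) : B (c • u) w = c * B u w := by
  simp only [B, Pi.smul_apply, smul_eq_mul]
  ring

lemma B_smul_right (c : F) (u w : Ix → F) : B w (c • u) = c * B w u := by
  simp only [B, Pi.smul_apply, smul_eq_mul]
  ring

lemma B_neg_left (u w : Ix → F) : B (-u) w = - B u w := by
  simp only [B, Pi.neg_apply]
  ring

lemma B_neg_right (u w : Ix → F) : B w (-u) = - B w u := by
  simp only [B, Pi.neg_apply]
  ring

@[simp] lemma B_zero_right (w : Ix → F) : B w 0 = 0 := by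
  simp [B]

lemma Q_smul (c : F) (u : Ix → F) : Q (c • u) = c ^ 2 * Q u := by
  simp only [Q_eq, Pi.smul_apply, smul_eq_mul]
  ring

lemma Q_neg (u : Ix → F) : Q (-u) = Q u := by
  simp only [Q_eq, Pi.neg_apply]
  ring

@[simp] lemma Q_zero : Q (0 : Ix → F) = 0 := by
  simp [Q_eq]

/-- the hyperbolic basis vector of a label -/
def bv (F : Type*) [Field F] (l : La) : Ix → F := Pi.single (Sum.inr l) 1

/-- the remaining basis vector -/
def b0 (F : Type*) [Field F] : Ix → F := Pi.single (Sum.inl ()) 1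

@[simp] lemma bv_self (l : La) : bv F l (.inr l) = 1 := by simp [bv]
lemma bv_ne {l k : La} (h : k ≠ l) : bv F l (.inr k) = 0 := by simp [bv, Pi.single_apply, h]
@[simp] lemma bv_inl (l : La) : bv F l (.inl ()) = 0 := by simp [bv]
@[simp] lemma b0_inl : b0 F (.inl ()) = 1 := by simp [b0]
@[simp] lemma b0_inr (l : La) : b0 F (.inr l) = 0 := by simp [b0]

lemma B_bv (v : Ix → F) (l : La) : B v (bv F l) = v (.inr (op l)) := by
  rcases l with i | i <;> fin_cases i <;> simp [B, bv, Pi.single_apply]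

lemma B_b0 (v : Ix → F) : B v (b0 F) = 2 * v (.inl ()) := by
  simp [B, b0, Pi.single_apply]

lemma Q_bv (l : La) : Q (bv F l) = 0 := by
  rcases l with i | i <;> fin_cases i <;> simp [Q_eq, bv, Pi.single_apply]

lemma Q_b0 : Q (b0 F) = 1 := by
  simp [Q_eq, b0, Pi.single_apply]

/-- two labels of different indices -/
def ok (i j : La) : Prop := i ≠ j ∧ i ≠ op j

instance : DecidableRel ok := fun i j => by unfold ok; infer_instance

lemma ok.symm {i j : La} (h : ok i j) : ok j i := by
  refine ⟨h.1.symm, fun e => h.2 ?_⟩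
  rw [e, op_op]

lemma ok.op {i j : La} (h : ok i j) : ok (op i) (op j) := by
  refine ⟨fun e => h.1 (op_inj e), fun e => h.2 ?_⟩
  rw [op_op] at e
  rw [← e, op_op]

/-! ### The Siegel formula -/

/-- the Siegel formula -/
def Ew (l : La) (w v : Ix → F) : Ix → F :=
  v + v (.inr (op l)) • w - (B v w + Q w * v (.inr (op l))) • bv F l

lemma Ew_ap (l : La) (w v : Ix → F) (k : Ix) :
    Ew l w v k = v k + v (.inr (op l)) * w k - (B v w + Q w * v (.inr (op l))) * bv F l k := by
  simp [Ew]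

section
variable {l : La} {w w' : Ix → F}

lemma Ew_op (hw : w (.inr (op l)) = 0) (v : Ix → F) : Ew l w v (.inr (op l)) = v (.inr (op l)) := by
  rw [Ew_ap, hw, bv_ne (op_ne l)]
  ring

lemma B_Ew (hw : w (.inr (op l)) = 0) (v : Ix → F) :
    B (Ew l w' v) w = B v w + v (.inr (op l)) * B w' w := by
  unfold Ew
  rw [sub_eq_add_neg, B_add_left, B_add_left, B_neg_left, B_smul_left, B_smul_left, B_comm (bv F l) w, B_bv, hw]
  ring

lemma Ew_add (hw : w (.inr (op l)) = 0) (hw' : w' (.inr (op l)) = 0) (v : Ix → F) :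
    Ew l w (Ew l w' v) = Ew l (w + w') v := by
  have h1 := Ew_op hw' v
  have h2 := B_Ew (w' := w') hw v
  funext k
  rw [Ew_ap, h1, h2, Ew_ap, Ew_ap, polar, B_add_right, B_comm w' w]
  simp only [Pi.add_apply]
  ring

lemma Ew_zero (v : Ix → F) : Ew l 0 v = v := by
  funext k
  simp [Ew_ap]

lemma Q_two_add (a y : F) (x : Ix → F) (h1 : x (.inr l) = 0) (h2 : x (.inr (op l)) = 0) :
    Q (a • bv F (op l) + y • bv F l + x) = a * y + Q x := by
  have e1 : B (a • bv F (op l)) (y • bv F l) = a * y := by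
    rw [B_smul_left, B_smul_right, B_bv, bv_self]
    ring
  have e2 : B (a • bv F (op l) + y • bv F l) x = 0 := by
    rw [B_add_left, B_smul_left, B_smul_left, B_comm (bv F (op l)) x, B_comm (bv F l) x, B_bv, B_bv, op_op, h1, h2]
    ring
  rw [polar, polar, Q_smul, Q_smul, Q_bv, Q_bv, e1, e2]
  ring

lemma Ew_Q (hw : w (.inr (op l)) = 0) (v : Ix → F) : Q (Ew l w v) = Q v := by
  unfold Ew
  generalize hα : v (.inr (op l)) = α
  generalize hγ : B v w + Q w * α = γ
  have e1 : v + α • w - γ • bv F l = (v + α • w) + (-(γ • bv F l)) := sub_eq_add_neg _ _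
  rw [e1, polar, polar, Q_smul, Q_neg, Q_smul, Q_bv, B_neg_right, B_smul_right, B_smul_right, B_bv]
  have e2 : (v + α • w) (.inr (op l)) = α := by
    simp [hα, hw]
  rw [e2, ← hγ]
  ring

end

/-- the Siegel formula as a linear map -/
noncomputable def Ef (l : La) (w : Ix → F) : (Ix → F) →ₗ[F] (Ix → F) where
  toFun := Ew l w
  map_add' u v := by
    funext k
    simp only [Ew_ap, Pi.add_apply, B_add_left]
    ring
  map_smul' c v := by
    funext k
    simp only [Ew_ap, Pi.smul_apply, smul_eq_mul, RingHom.id_apply, B_smul_left]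
    ring

/-- an isometry out of a pair of inverse linear maps -/
noncomputable def mkIso (f g : (Ix → F) →ₗ[F] (Ix → F)) (h1 : ∀ v, f (g v) = v) (h2 : ∀ v, g (f v) = v)
    (hQ : ∀ v, Q (f v) = Q v) : OG F :=
  ⟨⟨LinearMap.toMatrix' f, LinearMap.toMatrix' g,
    by rw [← LinearMap.toMatrix'_comp, show f ∘ₗ g = LinearMap.id from LinearMap.ext h1, LinearMap.toMatrix'_id],
    by rw [← LinearMap.toMatrix'_comp, show g ∘ₗ f = LinearMap.id from LinearMap.ext h2, LinearMap.toMatrix'_id]⟩,
   fun u _ => by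
     show Q (LinearMap.toMatrix' f *ᵥ u) = Q u
     rw [LinearMap.toMatrix'_mulVec, hQ]⟩

/-- the action on vectors -/
def act (g : OG F) (v : Ix → F) : Ix → F :=
  ((g : Matrix.GeneralLinearGroup Ix F) : Matrix Ix Ix F) *ᵥ v

lemma act_mkIso (f g : (Ix → F) →ₗ[F] (Ix → F)) (h1 : ∀ v, f (g v) = v) (h2 : ∀ v, g (f v) = v)
    (hQ : ∀ v, Q (f v) = Q v) (v : Ix → F) : act (mkIso f g h1 h2 hQ) v = f v :=
  LinearMap.toMatrix'_mulVec f v

lemma act_mul (g h : OG F) (v : Ix → F) : act (g * h) v = act g (act h v) := by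
  simp only [act, Matrix.mulVec_mulVec]
  rfl

lemma act_one (v : Ix → F) : act (1 : OG F) v = v := Matrix.one_mulVec v

lemma act_add (g : OG F) (x y : Ix → F) : act g (x + y) = act g x + act g y := Matrix.mulVec_add _ _ _

lemma act_smul (g : OG F) (a : F) (x : Ix → F) : act g (a • x) = a • act g x := Matrix.mulVec_smul _ _ _

lemma act_sub (g : OG F) (x y : Ix → F) : act g (x - y) = act g x - act g y := Matrix.mulVec_sub _ _ _

lemma act_zero (g : OG F) : act g 0 = 0 := Matrix.mulVec_zero _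

lemma act_Q (g : OG F) (v : Ix → F) : Q (act g v) = Q v := g.2 v v

lemma act_B (g : OG F) (x y : Ix → F) : B (act g x) (act g y) = B x y := by
  have h1 := polar (act g x) (act g y)
  have h2 := polar x y
  rw [← act_add, act_Q, act_Q, act_Q] at h1
  rw [h1] at h2
  exact add_left_cancel h2

lemma act_inv_act (g : OG F) (v : Ix → F) : act g⁻¹ (act g v) = v := by
  rw [← act_mul, inv_mul_cancel, act_one]

lemma act_act_inv (g : OG F) (v : Ix → F) : act g (act g⁻¹ v) = v := by
  rw [← act_mul, mul_inv_cancel, act_one]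

lemma iso_ext {g h : OG F} (H : ∀ v, act g v = act h v) : g = h := by
  apply Subtype.ext
  apply Units.ext
  exact Matrix.toLin'.injective (LinearMap.ext H)

lemma act_ne_zero (g : OG F) {v : Ix → F} (h : v ≠ 0) : act g v ≠ 0 := by
  intro e
  apply h
  rw [← act_inv_act g v, e, act_zero]

lemma inv_fix {g : OG F} {u : Ix → F} (h : act g u = u) : act g⁻¹ u = u := by
  conv_lhs => rw [← h]
  exact act_inv_act g u

/-! ### The Siegel maps -/

open Classical in
/-- the Siegel transformation of a label and a vector orthogonal to its basis vector -/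
noncomputable def SS (l : La) (w : Ix → F) : OG F :=
  if h : w (.inr (op l)) = 0 then
    mkIso (Ef l w) (Ef l (-w))
      (fun v => by
        show Ew l w (Ew l (-w) v) = v
        rw [Ew_add h (by simp [h]), add_neg_cancel, Ew_zero])
      (fun v => by
        show Ew l (-w) (Ew l w v) = v
        rw [Ew_add (by simp [h]) h, neg_add_cancel, Ew_zero])
      (Ew_Q h)
  else 1

section
variable {l : La} {w w' : Ix → F}

lemma act_SS (h : w (.inr (op l)) = 0) (v : Ix → F) : act (SS l w) v = Ew l w v := by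
  unfold SS
  rw [dif_pos h]
  exact act_mkIso _ _ _ _ _ v

lemma SS_mul (h : w (.inr (op l)) = 0) (h' : w' (.inr (op l)) = 0) : SS l w * SS l w' = SS l (w + w') := by
  apply iso_ext
  intro v
  have h2 : (w + w') (.inr (op l)) = 0 := by simp [h, h']
  rw [act_mul, act_SS h, act_SS h', act_SS h2, Ew_add h h']

lemma SS_zero : SS l (0 : Ix → F) = 1 := by
  apply iso_ext
  intro v
  rw [act_SS (by simp), Ew_zero, act_one]

lemma SS_inv (h : w (.inr (op l)) = 0) : (SS l w)⁻¹ = SS l (-w) := by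
  apply inv_eq_of_mul_eq_one_right
  rw [SS_mul h (by simp [h]), add_neg_cancel, SS_zero]

lemma SS_self (c : F) : SS l (c • bv F l) = 1 := by
  apply iso_ext
  intro v
  have h : (c • bv F l) (.inr (op l)) = 0 := by
    simp [bv_ne (op_ne l)]
  rw [act_SS h, act_one]
  funext k
  rw [Ew_ap, B_smul_right, B_bv, Q_smul, Q_bv]
  simp only [Pi.smul_apply, smul_eq_mul]
  ring

/-- the map fixes a basis vector -/
lemma SS_fix {j : La} (h : w (.inr (op l)) = 0) (hj : j ≠ op l) (hw : w (.inr (op j)) = 0) :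
    act (SS l w) (bv F j) = bv F j := by
  rw [act_SS h]
  funext k
  rw [Ew_ap, bv_ne hj.symm, B_comm, B_bv, hw]
  ring

end

/-! ### The group generated by the Siegel maps -/

/-- the Siegel maps of pairs of basis vectors -/
def RootMap (x : OG F) : Prop :=
  (∃ (l : La) (c : F), x = SS l (c • b0 F)) ∨ ∃ (j l : La) (c : F), ok j l ∧ x = SS l (c • bv F j)

/-- the group generated by the Siegel maps of pairs of basis vectors -/
noncomputable def E0 (F : Type*) [Field F] : Subgroup (OG F) := Subgroup.closure {x | RootMap x}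

/-- a label of the other index -/
def ot : La → La
  | Sum.inl i => Sum.inl (i + 1)
  | Sum.inr i => Sum.inl (i + 1)

lemma ot_ok : ∀ l : La, ok (ot l) l ∧ ok (op (ot l)) l := by decide

lemma decomp_all (v : Ix → F) (l : La) :
    v = v (.inl ()) • b0 F + v (.inr l) • bv F l + v (.inr (op l)) • bv F (op l) + v (.inr (ot l)) • bv F (ot l) + v (.inr (op (ot l))) • bv F (op (ot l)) := by
  funext k
  rcases l with i | i <;> fin_cases i <;> rcases k with ⟨⟩ | k <;> (try rcases k with j | j) <;> (try fin_cases j) <;>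
    simp [ot, bv, b0, Pi.single_apply]

lemma smul_b0_ap (c : F) (l : La) : (c • b0 F) (.inr l) = 0 := by simp

lemma smul_bv_ap (c : F) {j k : La} (h : k ≠ j) : (c • bv F j) (.inr k) = 0 := by
  simp [bv_ne h]

lemma SS_mem {l : La} {w : Ix → F} (hw : w (.inr (op l)) = 0) : SS l w ∈ E0 F := by
  have hd := decomp_all w l
  have h1 := ot_ok l
  set m := ot l with hm
  have hm1 : ok m l := h1.1
  have hm2 : ok (op m) l := h1.2
  have e1 : (w (.inl ()) • b0 F) (.inr (op l)) = 0 := smul_b0_ap _ _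
  have e2 : (w (.inr l) • bv F l) (.inr (op l)) = 0 := smul_bv_ap _ (op_ne l)
  have e3 : (w (.inr (op l)) • bv F (op l)) (.inr (op l)) = 0 := by simp [hw]
  have e4 : (w (.inr m) • bv F m) (.inr (op l)) = 0 := smul_bv_ap _ (fun e => hm1.2 e.symm)
  have e5 : (w (.inr (op m)) • bv F (op m)) (.inr (op l)) = 0 := smul_bv_ap _ (fun e => hm2.2 e.symm)
  have g1 : SS l (w (.inl ()) • b0 F) ∈ E0 F := Subgroup.subset_closure (Or.inl ⟨l, _, rfl⟩)
  have g4 : SS l (w (.inr m) • bv F m) ∈ E0 F := Subgroup.subset_closure (Or.inr ⟨m, l, _, hm1, rfl⟩)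
  have g5 : SS l (w (.inr (op m)) • bv F (op m)) ∈ E0 F := Subgroup.subset_closure (Or.inr ⟨op m, l, _, hm2, rfl⟩)
  have e6 : w (.inr (op l)) • bv F (op l) = 0 := by simp [hw]
  have hd' : w = w (.inl ()) • b0 F + w (.inr l) • bv F l + w (.inr m) • bv F m + w (.inr (op m)) • bv F (op m) := by
    conv_lhs => rw [hd]
    rw [e6, add_zero]
  have key : ∀ A B C D : Ix → F, A (.inr (op l)) = 0 → B (.inr (op l)) = 0 → C (.inr (op l)) = 0 → D (.inr (op l)) = 0 →
      SS l (A + B + C + D) = SS l A * SS l B * SS l C * SS l D := by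
    intro A B C D hA hB hC hD
    rw [SS_mul hA hB, SS_mul (by simp [hA, hB]) hC, SS_mul (by simp [hA, hB, hC]) hD]
  have h2 := key _ _ _ _ e1 e2 e4 e5
  rw [← hd', SS_self, mul_one] at h2
  rw [h2]
  exact mul_mem (mul_mem g1 g4) g5

/-! ### Moving singular vectors -/

open Classical in
/-- the projection away from a pair of labels -/
noncomputable def pr (l : La) (v : Ix → F) : Ix → F := fun k => if k = .inr l ∨ k = .inr (op l) then 0 else v k

lemma pr_l (l : La) (v : Ix → F) : pr l v (.inr l) = 0 := by simp [pr]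
lemma pr_op (l : La) (v : Ix → F) : pr l v (.inr (op l)) = 0 := by simp [pr]
lemma pr_ne {l : La} {k : Ix} (v : Ix → F) (h1 : k ≠ .inr l) (h2 : k ≠ .inr (op l)) : pr l v k = v k := by
  simp [pr, h1, h2]

lemma decomp_pr (v : Ix → F) (l : La) : v = v (.inr (op l)) • bv F (op l) + v (.inr l) • bv F l + pr l v := by
  funext k
  simp only [Pi.add_apply, Pi.smul_apply, smul_eq_mul]
  by_cases h1 : k = .inr l
  · subst h1
    rw [pr_l, bv_ne (op_ne l).symm]
    simp
  · by_cases h2 : k = .inr (op l)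
    · subst h2
      rw [pr_op, bv_ne (op_ne l)]
      simp
    · rw [pr_ne v h1 h2]
      have a1 : bv F l k = 0 := by
        simp [bv, Pi.single_apply, h1]
      have a2 : bv F (op l) k = 0 := by
        simp [bv, Pi.single_apply, h2]
      simp [a1, a2]

/-- a singular vector is moved onto the line of a basis vector -/
lemma to_label {v : Ix → F} (hQ : Q v = 0) {l : La} (hα : v (.inr (op l)) ≠ 0) :
    act (SS l ((-(v (.inr (op l)))⁻¹) • pr l v)) v = v (.inr (op l)) • bv F (op l) := by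
  set α := v (.inr (op l)) with hαd
  have hw : ((-α⁻¹) • pr l v) (.inr (op l)) = 0 := by
    simp [pr_op]
  rw [act_SS hw]
  set u := Ew l ((-α⁻¹) • pr l v) v with hu
  have e1 : u (.inr (op l)) = α := Ew_op hw v
  have e2 : ∀ k, k ≠ .inr l → k ≠ .inr (op l) → u k = 0 := by
    intro k h1 h2
    rw [hu, Ew_ap, ← hαd]
    have a1 : bv F l k = 0 := by
      simp [bv, Pi.single_apply, h1]
    simp only [Pi.smul_apply, smul_eq_mul, pr_ne v h1 h2, a1]
    field_simp
    ring
  have e3 : pr l u = 0 := by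
    funext k
    by_cases h1 : k = .inr l
    · subst h1
      exact pr_l l u
    · by_cases h2 : k = .inr (op l)
      · subst h2
        exact pr_op l u
      · rw [pr_ne u h1 h2, e2 k h1 h2]
        rfl
  have e4 := decomp_pr u l
  rw [e3, e1, add_zero] at e4
  have e5 : Q u = 0 := by
    rw [hu, Ew_Q hw, hQ]
  have e6 : Q (α • bv F (op l) + u (.inr l) • bv F l + 0) = α * u (.inr l) :=
    by rw [Q_two_add _ _ _ (by rfl) (by rfl)]; simp
  rw [add_zero, ← e4, e5] at e6
  have e7 : u (.inr l) = 0 := (mul_eq_zero.mp e6.symm).resolve_left hα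
  rw [e7, zero_smul, add_zero] at e4
  exact e4

lemma move1 {x y : La} (h : ok y (op x)) {t : F} (ht : t ≠ 0) : ∃ ε ∈ E0 F, act ε (bv F x) = t • bv F y := by
  have hy : y ≠ x := by
    have := h.2
    rwa [op_op] at this
  have hy2 : y ≠ op x := h.1
  have hw : (t • bv F y) (.inr (op (op x))) = 0 := by
    rw [op_op]
    exact smul_bv_ap _ hy.symm
  have g1 : SS (op x) (t • bv F y) ∈ E0 F := Subgroup.subset_closure (Or.inr ⟨y, op x, t, h, rfl⟩)
  have e1 : act (SS (op x) (t • bv F y)) (bv F x) = bv F x + t • bv F y := by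
    rw [act_SS hw]
    unfold Ew
    rw [op_op, bv_self, one_smul, B_smul_right, B_bv, Q_smul, Q_bv, bv_ne (show op y ≠ x from fun e => hy2 (by rw [← e, op_op]))]
    simp
  set v := act (SS (op x) (t • bv F y)) (bv F x) with hv
  have hQ : Q v = 0 := by
    rw [hv, act_Q, Q_bv]
  have hc : v (.inr y) = t := by
    rw [e1]
    simp [bv_ne hy]
  have hc' : v (.inr (op (op y))) ≠ 0 := by
    rw [op_op, hc]
    exact ht
  have e2 := to_label hQ hc'
  rw [op_op, hc] at e2
  refine ⟨_, mul_mem (SS_mem (l := op y) (w := (-t⁻¹) • pr (op y) v) ?_) g1, ?_⟩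
  · rw [Pi.smul_apply, op_op, smul_eq_mul]
    have := pr_op (op y) v
    rw [op_op] at this
    rw [this, mul_zero]
  · rw [act_mul, ← hv]
    exact e2

lemma move_aux : ∀ x y : La, ¬ ok y (op x) → ok (ot x) (op x) ∧ ok y (op (ot x)) := by decide

lemma move_any (x y : La) {t : F} (ht : t ≠ 0) : ∃ ε ∈ E0 F, act ε (bv F x) = t • bv F y := by
  by_cases h : ok y (op x)
  · exact move1 h ht
  · obtain ⟨a1, a2⟩ := move_aux x y h
    obtain ⟨ε₁, h₁, e₁⟩ := move1 a1 (one_ne_zero (α := F))
    obtain ⟨ε₂, h₂, e₂⟩ := move1 a2 ht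
    exact ⟨ε₂ * ε₁, mul_mem h₂ h₁, by rw [act_mul, e₁, one_smul, e₂]⟩

lemma bv_ne_zero (l : La) : bv F l ≠ 0 := by
  intro h
  have := congrFun h (.inr l)
  simp at this

lemma exists_coord {v : Ix → F} (hQ : Q v = 0) (hne : v ≠ 0) : ∃ l : La, v (.inr l) ≠ 0 := by
  by_contra hcon
  have hcon' : ∀ l : La, v (.inr l) = 0 := fun l => by
    by_contra h
    exact hcon ⟨l, h⟩
  apply hne
  have h0 : v (.inl ()) = 0 := by
    simp only [Q_eq, hcon', mul_zero, add_zero] at hQ
    exact pow_eq_zero_iff (two_ne_zero) |>.mp hQ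
  funext k
  rcases k with ⟨⟩ | k
  · exact h0
  · exact hcon' k

/-- a basis vector can be fixed -/
lemma fix_first (g : OG F) (z : La) : ∃ ε ∈ E0 F, act (ε * g) (bv F z) = bv F z := by
  set v := act g (bv F z) with hv
  have hQ : Q v = 0 := by
    rw [hv, act_Q, Q_bv]
  have hne : v ≠ 0 := act_ne_zero g (bv_ne_zero z)
  obtain ⟨l, hl⟩ := exists_coord hQ hne
  have hl' : v (.inr (op (op l))) ≠ 0 := by rwa [op_op]
  have e1 := to_label hQ hl'
  rw [op_op] at e1
  obtain ⟨ε₂, h₂, e₂⟩ := move_any l z (inv_ne_zero hl)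
  have hmem : SS (op l) ((-(v (.inr l))⁻¹) • pr (op l) v) ∈ E0 F := by
    apply SS_mem
    rw [Pi.smul_apply, smul_eq_mul]
    have := pr_op (op l) v
    rw [this, mul_zero]
  refine ⟨ε₂ * SS (op l) ((-(v (.inr l))⁻¹) • pr (op l) v), mul_mem h₂ hmem, ?_⟩
  rw [act_mul, act_mul, ← hv, e1, act_smul, e₂, smul_smul, mul_inv_cancel₀ hl, one_smul]

/-- the opposite basis vector, once a basis vector is on its line -/
lemma fix_op {h : OG F} {l : La} {α : F} (hα : α ≠ 0) (hl : act h (bv F l) = α • bv F l) :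
    ∃ x : Ix → F, x (.inr l) = 0 ∧ x (.inr (op l)) = 0 ∧
      (∀ k, k ≠ .inr l → k ≠ .inr (op l) → x k = act h (bv F (op l)) k) ∧
      act (SS l (α • x)) (α⁻¹ • bv F (op l)) = act h (bv F (op l)) := by
  set w' := act h (bv F (op l)) with hw'
  have e1 : α * w' (.inr (op l)) = 1 := by
    have := act_B h (bv F (op l)) (bv F l)
    rw [hl, B_smul_right, B_bv, B_bv, bv_self, ← hw'] at this
    exact this
  have e2 : w' (.inr (op l)) = α⁻¹ := by
    field_simp
    rw [mul_comm]
    exact e1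
  have hQ : Q w' = 0 := by
    rw [hw', act_Q, Q_bv]
  refine ⟨pr l w', pr_l l w', pr_op l w', fun k h1 h2 => pr_ne w' h1 h2, ?_⟩
  have hd := decomp_pr w' l
  rw [e2] at hd
  have e3 : Q w' = α⁻¹ * w' (.inr l) + Q (pr l w') := by
    conv_lhs => rw [hd]
    exact Q_two_add _ _ _ (pr_l l w') (pr_op l w')
  rw [hQ] at e3
  have e4 : w' (.inr l) = - (α * Q (pr l w')) := by
    have e3' : α * (α⁻¹ * w' (.inr l) + Q (pr l w')) = 0 := by rw [← e3, mul_zero]
    rw [mul_add, mul_inv_cancel_left₀ hα] at e3'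
    linear_combination e3'
  have hw : (α • pr l w') (.inr (op l)) = 0 := by
    rw [Pi.smul_apply, pr_op, smul_zero]
  rw [act_SS hw]
  conv_rhs => rw [hd, e4]
  unfold Ew
  have e5 : (α⁻¹ • bv F (op l)) (.inr (op l)) = α⁻¹ := by
    simp
  rw [e5, B_smul_left, B_smul_right, B_comm (bv F (op l)), B_bv, op_op, pr_l, Q_smul, smul_smul, inv_mul_cancel₀ hα, one_smul]
  have e6 : (α⁻¹ * (α * 0) + α ^ 2 * Q (pr l w') * α⁻¹) = α * Q (pr l w') := by
    field_simp
    ring
  rw [e6]
  funext k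
  simp only [Pi.add_apply, Pi.sub_apply, Pi.smul_apply, smul_eq_mul]
  ring

/-- the coordinates of an image -/
lemma coord_act {h : OG F} {j : La} {μ : F} (hμ : μ ≠ 0) (hj : act h (bv F j) = μ • bv F j) (v : Ix → F) :
    act h v (.inr (op j)) = μ⁻¹ * v (.inr (op j)) := by
  have := act_B h v (bv F j)
  rw [hj, B_smul_right, B_bv, B_bv] at this
  rw [← this]
  field_simp

abbrev il0 : La := Sum.inl 0
abbrev ir0 : La := Sum.inr 0
abbrev il1 : La := Sum.inl 1
abbrev ir1 : La := Sum.inr 1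

/-- an element fixing the first pair -/
def Fx (h : OG F) : Prop := act h (bv F il0) = bv F il0 ∧ act h (bv F ir0) = bv F ir0

lemma Fx.coord {h : OG F} (hh : Fx h) (v : Ix → F) :
    act h v (.inr il0) = v (.inr il0) ∧ act h v (.inr ir0) = v (.inr ir0) := by
  have h1 := coord_act (one_ne_zero (α := F)) (show act h (bv F ir0) = (1 : F) • bv F ir0 by rw [one_smul]; exact hh.2) v
  have h2 := coord_act (one_ne_zero (α := F)) (show act h (bv F il0) = (1 : F) • bv F il0 by rw [one_smul]; exact hh.1) v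
  simp only [inv_one, one_mul, op_inr, op_inl] at h1 h2
  exact ⟨h1, h2⟩

lemma Fx.mul {g h : OG F} (hg : Fx g) (hh : Fx h) : Fx (g * h) := by
  constructor
  · rw [act_mul, hh.1, hg.1]
  · rw [act_mul, hh.2, hg.2]

/-- the second step -/
lemma fix_second {h : OG F} (hh : Fx h) : ∃ ε ∈ E0 F, ∃ α : F, α ≠ 0 ∧ Fx (ε * h) ∧ act (ε * h) (bv F il1) = α • bv F il1 := by
  set v := act h (bv F il1) with hv
  have hQ : Q v = 0 := by
    rw [hv, act_Q, Q_bv]
  have hne : v ≠ 0 := act_ne_zero h (bv_ne_zero il1)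
  have c1 : v (.inr il0) = 0 := by
    rw [hv, (hh.coord _).1]
    exact bv_ne (by decide)
  have c2 : v (.inr ir0) = 0 := by
    rw [hv, (hh.coord _).2]
    exact bv_ne (by decide)
  -- a first element making the coordinate nonzero
  obtain ⟨σ, hσ, hσf, hσc⟩ : ∃ σ ∈ E0 F, Fx σ ∧ act σ v (.inr il1) ≠ 0 := by
    by_cases h1 : v (.inr il1) = 0
    · have hw : (b0 F) (.inr (op il1)) = 0 := b0_inr _
      refine ⟨SS il1 (b0 F), SS_mem hw, ⟨SS_fix hw (by decide) (b0_inr _), SS_fix hw (by decide) (b0_inr _)⟩, ?_⟩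
      have h0 : v (.inl ()) = 0 := by
        rw [Q_eq, c1, h1, zero_mul, zero_mul, add_zero, add_zero] at hQ
        exact pow_eq_zero_iff (two_ne_zero) |>.mp hQ
      have h2 : v (.inr ir1) ≠ 0 := by
        intro h2
        apply hne
        funext k
        rcases k with ⟨⟩ | k
        · exact h0
        · rcases k with i | i <;> fin_cases i
          · exact c1
          · exact h1
          · exact c2
          · exact h2
      rw [act_SS hw, Ew_ap, B_b0, h0, Q_b0]
      simp only [op_inl, b0_inr, bv_self, h1]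
      simpa using h2
    · exact ⟨1, one_mem _, ⟨act_one _, act_one _⟩, by rwa [act_one]⟩
  set v' := act σ v with hv'
  have hQ' : Q v' = 0 := by
    rw [hv', act_Q, hQ]
  have c3 : v' (.inr il0) = 0 := by
    rw [hv', (hσf.coord _).1, c1]
  have c4 : v' (.inr ir0) = 0 := by
    rw [hv', (hσf.coord _).2, c2]
  have hc : v' (.inr (op ir1)) ≠ 0 := hσc
  have e1 := to_label hQ' hc
  set α := v' (.inr (op ir1)) with hα
  have hw : ((-α⁻¹) • pr ir1 v') (.inr (op ir1)) = 0 := by
    rw [Pi.smul_apply, pr_op, smul_zero]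
  have hw2 : ((-α⁻¹) • pr ir1 v') (.inr ir0) = 0 := by
    rw [Pi.smul_apply, pr_ne v' (by decide) (by decide), c4, smul_zero]
  have hw3 : ((-α⁻¹) • pr ir1 v') (.inr il0) = 0 := by
    rw [Pi.smul_apply, pr_ne v' (by decide) (by decide), c3, smul_zero]
  have hτ : Fx (SS ir1 ((-α⁻¹) • pr ir1 v')) := ⟨SS_fix hw (by decide) hw2, SS_fix hw (by decide) hw3⟩
  refine ⟨SS ir1 ((-α⁻¹) • pr ir1 v') * σ, mul_mem (SS_mem hw) hσ, α, hc, ?_, ?_⟩
  · exact (hτ.mul hσf).mul hh
  · rw [act_mul, act_mul, ← hv, ← hv']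
    exact e1

/-- the description of the elements reached by the reduction -/
structure Dg (m : OG F) (α ε₀ : F) : Prop where
  hα : α ≠ 0
  hε : ε₀ * ε₀ = 1
  h0 : act m (bv F il0) = bv F il0
  h1 : act m (bv F ir0) = bv F ir0
  h2 : act m (bv F il1) = α • bv F il1
  h3 : act m (bv F ir1) = α⁻¹ • bv F ir1
  h4 : act m (b0 F) = ε₀ • b0 F

/-- every isometry is, modulo the Siegel maps, diagonal -/
theorem reduce (g : OG F) : ∃ ε ∈ E0 F, ∃ α ε₀ : F, Dg (ε * g) α ε₀ := by
  obtain ⟨ε₁, h₁, e₁⟩ := fix_first g il0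
  set g₁ := ε₁ * g with hg₁
  have hl0 : act g₁ (bv F il0) = (1 : F) • bv F il0 := by rw [one_smul]; exact e₁
  obtain ⟨x, hx1, hx2, hx3, hx4⟩ := fix_op (one_ne_zero (α := F)) hl0
  have hw₁ : ((1 : F) • x) (.inr (op il0)) = 0 := by
    rw [one_smul]
    exact hx2
  set τ₁ := SS il0 ((1 : F) • x) with hτ₁
  have hτ₁m : τ₁ ∈ E0 F := SS_mem hw₁
  have hfix₁ : act τ₁ (bv F il0) = bv F il0 := SS_fix hw₁ (by decide) hw₁
  have hx4' : act τ₁ (bv F ir0) = act g₁ (bv F ir0) := by
    have := hx4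
    rw [inv_one, one_smul] at this
    exact this
  set g₂ := τ₁⁻¹ * g₁ with hg₂
  have hF₂ : Fx g₂ := by
    constructor
    · rw [hg₂, act_mul, e₁]
      exact inv_fix hfix₁
    · rw [hg₂, act_mul, ← hx4', act_inv_act]
  obtain ⟨ε₃, h₃, α, hα, hF₃, e₃⟩ := fix_second hF₂
  set g₃ := ε₃ * g₂ with hg₃
  obtain ⟨y, hy1, hy2, hy3, hy4⟩ := fix_op hα e₃
  have hw₂ : (α • y) (.inr (op il1)) = 0 := by
    rw [Pi.smul_apply, hy2, smul_zero]
  set τ₂ := SS il1 (α • y) with hτ₂
  have hτ₂m : τ₂ ∈ E0 F := SS_mem hw₂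
  have hy5 : y (.inr il0) = 0 := by
    rw [hy3 _ (by decide) (by decide), (hF₃.coord _).1]
    exact bv_ne (by decide)
  have hy6 : y (.inr ir0) = 0 := by
    rw [hy3 _ (by decide) (by decide), (hF₃.coord _).2]
    exact bv_ne (by decide)
  have hFτ : Fx τ₂ := by
    constructor
    · exact SS_fix hw₂ (by decide) (by rw [Pi.smul_apply, op_inl, hy6, smul_zero])
    · exact SS_fix hw₂ (by decide) (by rw [Pi.smul_apply, op_inr, hy5, smul_zero])
  have hfix₂ : act τ₂ (bv F il1) = bv F il1 := SS_fix hw₂ (by decide) hw₂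
  set g₄ := τ₂⁻¹ * g₃ with hg₄
  have hF₄ : Fx g₄ := Fx.mul ⟨inv_fix hFτ.1, inv_fix hFτ.2⟩ hF₃
  have e₄ : act g₄ (bv F il1) = α • bv F il1 := by
    rw [hg₄, act_mul, e₃, act_smul, inv_fix hfix₂]
  have e₅ : act g₄ (bv F ir1) = α⁻¹ • bv F ir1 := by
    have hy4' : act τ₂ (α⁻¹ • bv F ir1) = act g₃ (bv F ir1) := hy4
    rw [hg₄, act_mul, ← hy4', act_inv_act]
  set z := act g₄ (b0 F) with hz
  have z1 : z (.inr il0) = 0 := by
    rw [hz, (hF₄.coord _).1, b0_inr]
  have z2 : z (.inr ir0) = 0 := by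
    rw [hz, (hF₄.coord _).2, b0_inr]
  have z3 : z (.inr ir1) = 0 := by
    have := coord_act hα e₄ (b0 F)
    rw [op_inl, b0_inr, mul_zero] at this
    exact this
  have z4 : z (.inr il1) = 0 := by
    have := coord_act (inv_ne_zero hα) e₅ (b0 F)
    rw [op_inr, b0_inr, mul_zero] at this
    exact this
  have hz2 : z = z (.inl ()) • b0 F := by
    funext k
    rcases k with ⟨⟩ | k
    · show z (.inl ()) = z (.inl ()) * b0 F (.inl ())
      simp
    · rcases k with i | i <;> fin_cases i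
      · simpa using z1
      · simpa using z4
      · simpa using z2
      · simpa using z3
  have hz3 : z (.inl ()) * z (.inl ()) = 1 := by
    have h1 : Q z = 1 := by
      rw [hz, act_Q, Q_b0]
    rw [hz2, Q_smul, Q_b0] at h1
    simpa [pow_two] using h1
  refine ⟨τ₂⁻¹ * ε₃ * τ₁⁻¹ * ε₁, mul_mem (mul_mem (mul_mem (inv_mem hτ₂m) h₃) (inv_mem hτ₁m)) h₁, α, z (.inl ()), ?_⟩
  have e : τ₂⁻¹ * ε₃ * τ₁⁻¹ * ε₁ * g = g₄ := by
    rw [hg₄, hg₃, hg₂, hg₁]
    group
  rw [e]
  exact ⟨hα, hz3, hF₄.1, hF₄.2, e₄, e₅, hz2⟩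

/-! ### The conjugates of the Siegel maps -/

lemma conj_SS (g : OG F) {l : La} {μ : F} (hμ0 : μ ≠ 0) (hμ : act g (bv F l) = μ • bv F l) {w : Ix → F}
    (hw : w (.inr (op l)) = 0) : g * SS l w * g⁻¹ = SS l (μ • act g w) := by
  have hw' : (μ • act g w) (.inr (op l)) = 0 := by
    rw [Pi.smul_apply, coord_act hμ0 hμ, hw]
    simp
  apply iso_ext
  intro v
  rw [act_mul, act_mul, act_SS hw, act_SS hw']
  set u := act g⁻¹ v with hu
  have hv : act g u = v := act_act_inv g v
  have e1 : u (.inr (op l)) = μ * v (.inr (op l)) := by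
    have := act_B g u (bv F l)
    rw [hv, hμ, B_smul_right, B_bv, B_bv] at this
    exact this.symm
  have e2 : B u w = B v (act g w) := by
    rw [← act_B g u w, hv]
  unfold Ew
  rw [act_sub, act_add, act_smul, act_smul, hv, hμ, e1, e2, B_smul_right, Q_smul, act_Q]
  funext k
  simp only [Pi.add_apply, Pi.sub_apply, Pi.smul_apply, smul_eq_mul]
  ring

lemma Dg.label {m : OG F} {α ε₀ : F} (hm : Dg m α ε₀) (l : La) : ∃ μ : F, μ ≠ 0 ∧ act m (bv F l) = μ • bv F l := by
  rcases l with i | i <;> fin_cases i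
  · exact ⟨1, one_ne_zero, by rw [one_smul]; exact hm.h0⟩
  · exact ⟨α, hm.hα, hm.h2⟩
  · exact ⟨1, one_ne_zero, by rw [one_smul]; exact hm.h1⟩
  · exact ⟨α⁻¹, inv_ne_zero hm.hα, hm.h3⟩

lemma RootMap.exists {x : OG F} (hx : RootMap x) : ∃ (l : La) (w : Ix → F), w (.inr l) = 0 ∧ w (.inr (op l)) = 0 ∧ x = SS l w := by
  rcases hx with ⟨l, c, rfl⟩ | ⟨j, l, c, h, rfl⟩
  · exact ⟨l, c • b0 F, smul_b0_ap _ _, smul_b0_ap _ _, rfl⟩
  · exact ⟨l, c • bv F j, smul_bv_ap _ h.1.symm, smul_bv_ap _ (fun e => h.2 e.symm), rfl⟩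

lemma conj_Dg {m : OG F} {α ε₀ : F} (hm : Dg m α ε₀) {x : OG F} (hx : x ∈ E0 F) : m * x * m⁻¹ ∈ E0 F := by
  unfold E0 at hx
  induction hx using Subgroup.closure_induction with
  | mem x hx =>
    obtain ⟨l, w, _, hw, rfl⟩ := RootMap.exists hx
    obtain ⟨μ, hμ0, hμ⟩ := hm.label l
    rw [conj_SS m hμ0 hμ hw]
    apply SS_mem
    rw [Pi.smul_apply, coord_act hμ0 hμ, hw]
    simp
  | one => simp
  | mul x y _ _ hx hy =>
    have e : m * (x * y) * m⁻¹ = (m * x * m⁻¹) * (m * y * m⁻¹) := by group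
    rw [e]
    exact mul_mem hx hy
  | inv x _ hx =>
    have e : m * x⁻¹ * m⁻¹ = (m * x * m⁻¹)⁻¹ := by group
    rw [e]
    exact inv_mem hx

/-- `E0` is normal -/
instance E0_normal : (E0 F).Normal := by
  constructor
  intro x hx g
  obtain ⟨ε, hε, α, ε₀, hf⟩ := reduce g
  have e : g * x * g⁻¹ = ε⁻¹ * ((ε * g) * x * (ε * g)⁻¹) * ε := by group
  rw [e]
  exact mul_mem (mul_mem (inv_mem hε) (conj_Dg hf hx)) hε

/-! ### The torus -/

/-- the Siegel map of two labels -/
noncomputable def XL (i j : La) (c : F) : OG F := SS j (c • bv F i)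

section
variable {i j : La} (h : ok i j)
include h

lemma XL_w (c : F) : (c • bv F i) (.inr (op j)) = 0 := smul_bv_ap _ (fun e => h.2 e.symm)

lemma act_XL_ap (c : F) (v : Ix → F) (k : La) :
    act (XL i j c) v (.inr k) = v (.inr k) + c * ((if k = i then v (.inr (op j)) else 0) - (if k = j then v (.inr (op i)) else 0)) := by
  unfold XL
  rw [act_SS (XL_w h c), Ew_ap, B_smul_right, B_bv, Q_smul, Q_bv]
  simp only [Pi.smul_apply, smul_eq_mul, mul_zero, add_zero]
  by_cases h1 : k = i
  · subst h1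
    have h2 : k ≠ j := h.1
    simp [bv_ne h2, h2]
    ring
  · by_cases h2 : k = j
    · subst h2
      simp [bv_ne h1, h1]
      ring
    · simp [bv_ne h1, bv_ne h2, h1, h2]

lemma act_XL_0 (c : F) (v : Ix → F) : act (XL i j c) v (.inl ()) = v (.inl ()) := by
  unfold XL
  rw [act_SS (XL_w h c), Ew_ap]
  simp

lemma XL_mem (c : F) : XL i j c ∈ E0 F := Subgroup.subset_closure (Or.inr ⟨i, j, c, h, rfl⟩)

end

/-- the element `w` -/
noncomputable def wr (p q : La) (c : F) : OG F := XL p q c * XL (op p) (op q) c⁻¹ * XL p q c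

/-- the element `h` -/
noncomputable def hh (p q : La) (c : F) : OG F := wr p q c * wr p q (-1)

lemma hh_mem {p q : La} (h : ok p q) (c : F) : hh p q c ∈ E0 F :=
  mul_mem (mul_mem (mul_mem (XL_mem h _) (XL_mem h.op _)) (XL_mem h _)) (mul_mem (mul_mem (XL_mem h _) (XL_mem h.op _)) (XL_mem h _))

section
variable {p q : La} (h : ok p q)
include h

lemma wr_0 (c : F) (v : Ix → F) : act (wr p q c) v (.inl ()) = v (.inl ()) := by
  unfold wr
  simp only [act_mul, act_XL_0 h, act_XL_0 h.op]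

lemma wr_ap {c : F} (hc : c ≠ 0) (v : Ix → F) (k : La) :
    act (wr p q c) v (.inr k) = if k = p then c * v (.inr (op q)) else if k = q then - (c * v (.inr (op p))) else if k = op p then c⁻¹ * v (.inr q) else if k = op q then - (c⁻¹ * v (.inr p)) else v (.inr k) := by
  have h1 : p ≠ q := h.1
  have h2 : p ≠ op q := h.2
  have h3 : op p ≠ op q := h.op.1
  have h4 : q ≠ op p := fun e => h2 (by rw [e, op_op])
  have h5 : p ≠ op p := (op_ne p).symm
  have h6 : q ≠ op q := (op_ne q).symm
  unfold wr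
  simp only [act_mul]
  by_cases e1 : k = p
  · subst e1
    simp only [act_XL_ap h, act_XL_ap h.op, op_op, h1, h2, h3, h4, h5, h6, h1.symm, h2.symm, h3.symm, h4.symm, h5.symm, h6.symm, if_true, if_false]
    field_simp
    ring
  · by_cases e2 : k = q
    · subst e2
      simp only [act_XL_ap h, act_XL_ap h.op, op_op, h1, h2, h3, h4, h5, h6, h1.symm, h2.symm, h3.symm, h4.symm, h5.symm, h6.symm, if_true, if_false]
      field_simp
      ring
    · by_cases e3 : k = op p
      · subst e3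
        simp only [act_XL_ap h, act_XL_ap h.op, op_op, h1, h2, h3, h4, h5, h6, h1.symm, h2.symm, h3.symm, h4.symm, h5.symm, h6.symm, if_true, if_false]
        field_simp
        ring
      · by_cases e4 : k = op q
        · subst e4
          simp only [act_XL_ap h, act_XL_ap h.op, op_op, h1, h2, h3, h4, h5, h6, h1.symm, h2.symm, h3.symm, h4.symm, h5.symm, h6.symm, if_true, if_false]
          field_simp
          ring
        · simp only [act_XL_ap h, act_XL_ap h.op, op_op, e1, e2, e3, e4, h1, h2, h3, h4, h5, h6, h1.symm, h2.symm, h3.symm, h4.symm, h5.symm, h6.symm, if_true, if_false]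
          ring

lemma hh_0 (c : F) (v : Ix → F) : act (hh p q c) v (.inl ()) = v (.inl ()) := by
  unfold hh
  rw [act_mul, wr_0 h, wr_0 h]

lemma hh_ap {c : F} (hc : c ≠ 0) (v : Ix → F) (k : La) :
    act (hh p q c) v (.inr k) = if k = p then c * v (.inr k) else if k = q then c * v (.inr k) else if k = op p then c⁻¹ * v (.inr k) else if k = op q then c⁻¹ * v (.inr k) else v (.inr k) := by
  have h1 : p ≠ q := h.1
  have h2 : p ≠ op q := h.2
  have h3 : op p ≠ op q := h.op.1
  have h4 : q ≠ op p := fun e => h2 (by rw [e, op_op])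
  have h5 : p ≠ op p := (op_ne p).symm
  have h6 : q ≠ op q := (op_ne q).symm
  have hm : (-1 : F) ≠ 0 := by simp
  unfold hh
  rw [act_mul, wr_ap h hc]
  by_cases e1 : k = p
  · subst e1
    simp [wr_ap h hm, h1, h2, h3, h4, h5, h6, h1.symm, h2.symm, h3.symm, h4.symm, h5.symm, h6.symm]
  · by_cases e2 : k = q
    · subst e2
      simp [wr_ap h hm, e1, h1, h2, h3, h4, h5, h6, h1.symm, h2.symm, h3.symm, h4.symm, h5.symm, h6.symm]
    · by_cases e3 : k = op p
      · subst e3
        simp [wr_ap h hm, e1, e2, h1, h2, h3, h4, h5, h6, h1.symm, h2.symm, h3.symm, h4.symm, h5.symm, h6.symm]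
      · by_cases e4 : k = op q
        · subst e4
          simp [wr_ap h hm, e1, e2, e3, h1, h2, h3, h4, h5, h6, h1.symm, h2.symm, h3.symm, h4.symm, h5.symm, h6.symm]
        · simp [wr_ap h hm, e1, e2, e3, e4]

end

lemma iso_ext_bv {g g' : OG F} (H0 : act g (b0 F) = act g' (b0 F)) (H : ∀ l, act g (bv F l) = act g' (bv F l)) : g = g' := by
  apply Subtype.ext
  apply Units.ext
  ext a b
  rcases b with ⟨⟩ | l
  · have := congrFun H0 a
    simpa [act, b0] using this
  · have := congrFun (H l) a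
    simpa [act, bv] using this

lemma sq_Dg {m : OG F} {α ε₀ : F} (hm : Dg m α ε₀) : m * m ∈ E0 F := by
  have hα := hm.hα
  have ok1 : ok il1 il0 := by decide
  have ok2 : ok il1 ir0 := by decide
  have e : m * m = hh il1 il0 α * hh il1 ir0 α := by
    have hA : ∀ v : Ix → F, act (hh il1 il0 α * hh il1 ir0 α) v (.inl ()) = v (.inl ()) := by
      intro v
      rw [act_mul, hh_0 ok1, hh_0 ok2]
    have hB : ∀ (v : Ix → F) (k : La), act (hh il1 il0 α * hh il1 ir0 α) v (.inr k) =
        (if k = il1 then α * α else if k = ir1 then α⁻¹ * α⁻¹ else 1) * v (.inr k) := by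
      intro v k
      rw [act_mul, hh_ap ok1 hα]
      simp only [hh_ap ok2 hα]
      rcases k with i | i <;> fin_cases i <;> simp [hα] <;> field_simp
    set c : La → F := fun k => if k = il1 then α * α else if k = ir1 then α⁻¹ * α⁻¹ else 1 with hc
    have h_m2 : ∀ l, act m (act m (bv F l)) = c l • bv F l := by
      intro l
      rcases l with i | i <;> fin_cases i
      · have : c il0 = 1 := by simp [hc]
        show act m (act m (bv F il0)) = c il0 • bv F il0
        rw [hm.h0, hm.h0, this, one_smul]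
      · have : c il1 = α * α := by simp [hc]
        show act m (act m (bv F il1)) = c il1 • bv F il1
        rw [hm.h2, act_smul, hm.h2, smul_smul, this]
      · have : c ir0 = 1 := by simp [hc]
        show act m (act m (bv F ir0)) = c ir0 • bv F ir0
        rw [hm.h1, hm.h1, this, one_smul]
      · have : c ir1 = α⁻¹ * α⁻¹ := by simp [hc]
        show act m (act m (bv F ir1)) = c ir1 • bv F ir1
        rw [hm.h3, act_smul, hm.h3, smul_smul, this]
    have h_AB : ∀ l, act (hh il1 il0 α * hh il1 ir0 α) (bv F l) = c l • bv F l := by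
      intro l
      funext k
      rcases k with ⟨⟩ | k
      · show act _ _ (.inl ()) = (c l • bv F l) (.inl ())
        rw [hA]
        simp
      · rw [hB]
        by_cases h : k = l
        · subst h
          simp [hc]
        · simp [bv_ne h]
    apply iso_ext_bv
    · rw [act_mul, hm.h4, act_smul, hm.h4, smul_smul, hm.hε, one_smul]
      funext k
      rcases k with ⟨⟩ | k
      · show b0 F (.inl ()) = act _ _ (.inl ())
        rw [hA]
      · rw [hB]
        simp
    · intro l
      rw [act_mul, h_m2, h_AB]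
  rw [e]
  exact mul_mem (hh_mem ok1 α) (hh_mem ok2 α)

/-- `O` modulo the Siegel maps is abelian -/
theorem comm_le_E0 : commutator (OG F) ≤ E0 F := by
  have hsq : ∀ g : OG F, (QuotientGroup.mk' (E0 F) g) * (QuotientGroup.mk' (E0 F) g) = 1 := by
    intro g
    obtain ⟨ε, hε, α, ε₀, hf⟩ := reduce g
    have h1 : QuotientGroup.mk' (E0 F) ε = 1 := (QuotientGroup.eq_one_iff _).mpr hε
    have h2 : QuotientGroup.mk' (E0 F) (ε * g) = QuotientGroup.mk' (E0 F) g := by
      rw [map_mul, h1, one_mul]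
    rw [← h2, ← map_mul]
    exact (QuotientGroup.eq_one_iff _).mpr (sq_Dg hf)
  rw [commutator_def, Subgroup.commutator_le]
  intro a _ b _
  rw [← QuotientGroup.eq_one_iff]
  show QuotientGroup.mk' (E0 F) ⁅a, b⁆ = 1
  rw [map_commutatorElement, commutatorElement_def]
  set x := QuotientGroup.mk' (E0 F) a
  set y := QuotientGroup.mk' (E0 F) b
  have hx : x * x = 1 := hsq a
  have hy : y * y = 1 := hsq b
  have hxy : (x * y) * (x * y) = 1 := by
    have := hsq (a * b)
    rwa [map_mul] at this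
  have hxi : x⁻¹ = x := inv_eq_of_mul_eq_one_left hx
  have hyi : y⁻¹ = y := inv_eq_of_mul_eq_one_left hy
  rw [hxi, hyi]
  calc x * y * x * y = (x * y) * (x * y) := by group
    _ = 1 := hxy

/-! ### Diagonal elements -/

/-- a diagonal linear map -/
def dmap (μ : Ix → F) : (Ix → F) →ₗ[F] (Ix → F) where
  toFun v := fun k => μ k * v k
  map_add' u v := by
    funext k
    simp only [Pi.add_apply]
    ring
  map_smul' c v := by
    funext k
    simp only [Pi.smul_apply, smul_eq_mul, RingHom.id_apply]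
    ring

open Classical in
/-- the multipliers of a diagonal element -/
noncomputable def dlμ (l : La) (a : F) : Ix → F := fun k => if k = .inr l then a else if k = .inr (op l) then a⁻¹ else 1

lemma dlμ_self (l : La) (a : F) : dlμ l a (.inr l) = a := by simp [dlμ]

lemma dlμ_op (l : La) (a : F) : dlμ l a (.inr (op l)) = a⁻¹ := by
  have : ¬ (op l = l) := op_ne l
  simp [dlμ, this]

lemma dlμ_ne {l : La} {k : Ix} (a : F) (h1 : k ≠ .inr l) (h2 : k ≠ .inr (op l)) : dlμ l a k = 1 := by
  simp [dlμ, h1, h2]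

lemma dlμ_mul (l : La) {a : F} (ha : a ≠ 0) (k : Ix) : dlμ l a k * dlμ l a⁻¹ k = 1 := by
  by_cases h1 : k = .inr l
  · subst h1
    rw [dlμ_self, dlμ_self, mul_inv_cancel₀ ha]
  · by_cases h2 : k = .inr (op l)
    · subst h2
      rw [dlμ_op, dlμ_op, inv_inv, inv_mul_cancel₀ ha]
    · rw [dlμ_ne _ h1 h2, dlμ_ne _ h1 h2, one_mul]

lemma dlμ_0 (l : La) (a : F) : dlμ l a (.inl ()) = 1 := dlμ_ne _ (by simp) (by simp)

lemma dlμ_prod (l : La) {a : F} (ha : a ≠ 0) (i : Fin 2) : dlμ l a (.inr (.inl i)) * dlμ l a (.inr (.inr i)) = 1 := by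
  by_cases h1 : l = .inl i
  · subst h1
    have := dlμ_op (.inl i) a
    rw [op_inl] at this
    rw [dlμ_self, this, mul_inv_cancel₀ ha]
  · by_cases h2 : l = .inr i
    · subst h2
      have := dlμ_op (.inr i) a
      rw [op_inr] at this
      rw [dlμ_self, this, inv_mul_cancel₀ ha]
    · have a1 : (Sum.inr (Sum.inl i) : Ix) ≠ Sum.inr l := fun e => h1 (by simpa using e.symm)
      have a2 : (Sum.inr (Sum.inl i) : Ix) ≠ Sum.inr (op l) := fun e => h2 (by
        have : Sum.inl i = op l := by simpa using e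
        rw [← op_op l, ← this]
        rfl)
      have a3 : (Sum.inr (Sum.inr i) : Ix) ≠ Sum.inr l := fun e => h2 (by simpa using e.symm)
      have a4 : (Sum.inr (Sum.inr i) : Ix) ≠ Sum.inr (op l) := fun e => h1 (by
        have : Sum.inr i = op l := by simpa using e
        rw [← op_op l, ← this]
        rfl)
      rw [dlμ_ne _ a1 a2, dlμ_ne _ a3 a4, one_mul]

/-- the diagonal isometry of a label -/
noncomputable def dl (l : La) (a : F) (ha : a ≠ 0) : OG F :=
  mkIso (dmap (dlμ l a)) (dmap (dlμ l a⁻¹))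
    (fun v => by
      funext k
      show dlμ l a k * (dlμ l a⁻¹ k * v k) = v k
      rw [← mul_assoc, dlμ_mul l ha, one_mul])
    (fun v => by
      funext k
      show dlμ l a⁻¹ k * (dlμ l a k * v k) = v k
      rw [← mul_assoc, mul_comm (dlμ l a⁻¹ k), dlμ_mul l ha, one_mul])
    (fun v => by
      rw [Q_eq, Q_eq]
      show (dlμ l a (.inl ()) * v (.inl ())) ^ 2 + (dlμ l a (.inr (.inl 0)) * v (.inr (.inl 0))) * (dlμ l a (.inr (.inr 0)) * v (.inr (.inr 0)))
          + (dlμ l a (.inr (.inl 1)) * v (.inr (.inl 1))) * (dlμ l a (.inr (.inr 1)) * v (.inr (.inr 1))) = _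
      have h0 := dlμ_prod l ha 0
      have h1 := dlμ_prod l ha 1
      rw [dlμ_0]
      linear_combination (v (.inr (.inl 0)) * v (.inr (.inr 0))) * h0 + (v (.inr (.inl 1)) * v (.inr (.inr 1))) * h1)

lemma act_dl (l : La) {a : F} (ha : a ≠ 0) (v : Ix → F) (k : Ix) : act (dl l a ha) v k = dlμ l a k * v k := by
  unfold dl
  rw [act_mkIso]
  rfl

lemma act_dl_self (l : La) {a : F} (ha : a ≠ 0) : act (dl l a ha) (bv F l) = a • bv F l := by
  funext k
  rw [act_dl, Pi.smul_apply, smul_eq_mul]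
  by_cases h1 : k = .inr l
  · subst h1
    rw [dlμ_self]
  · have : bv F l k = 0 := by
      simp [bv, Pi.single_apply, h1]
    rw [this, mul_zero, mul_zero]

lemma act_dl_fix (l : La) {a : F} (ha : a ≠ 0) {w : Ix → F} (h1 : w (.inr l) = 0) (h2 : w (.inr (op l)) = 0) : act (dl l a ha) w = w := by
  funext k
  rw [act_dl]
  by_cases e1 : k = .inr l
  · subst e1
    rw [h1, mul_zero]
  · by_cases e2 : k = .inr (op l)
    · subst e2
      rw [h2, mul_zero]
    · rw [dlμ_ne _ e1 e2, one_mul]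

lemma SS_comm {l : La} {w : Ix → F} (h1 : w (.inr l) = 0) (h2 : w (.inr (op l)) = 0) {a : F} (ha0 : a ≠ 0) (ha1 : a ≠ 1) :
    SS l w ∈ commutator (OG F) := by
  have hd : a - 1 ≠ 0 := sub_ne_zero.mpr ha1
  set w' := (a - 1)⁻¹ • w with hw'
  have e1 : w' (.inr l) = 0 := by
    rw [hw', Pi.smul_apply, h1, smul_zero]
  have e2 : w' (.inr (op l)) = 0 := by
    rw [hw', Pi.smul_apply, h2, smul_zero]
  have e3 : (a • w') (.inr (op l)) = 0 := by
    rw [Pi.smul_apply, e2, smul_zero]
  have e : ⁅dl l a ha0, SS l w'⁆ = SS l w := by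
    rw [commutatorElement_def, conj_SS _ ha0 (act_dl_self l ha0) e2, act_dl_fix l ha0 e1 e2, SS_inv e2, SS_mul e3 (by simp [e2])]
    congr 1
    funext k
    simp only [hw', Pi.add_apply, Pi.smul_apply, Pi.neg_apply, smul_eq_mul]
    field_simp
    ring
  rw [← e]
  exact Subgroup.commutator_mem_commutator (Subgroup.mem_top _) (Subgroup.mem_top _)

theorem E0_le_comm (hF : ∃ a : F, a ≠ 0 ∧ a ≠ 1) : E0 F ≤ commutator (OG F) := by
  obtain ⟨a, ha0, ha1⟩ := hF
  apply (Subgroup.closure_le _).mpr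
  intro x hx
  obtain ⟨l, w, h1, h2, rfl⟩ := RootMap.exists hx
  exact SS_comm h1 h2 ha0 ha1

/-- **`Ω` is generated by the Siegel maps.** -/
theorem omega_eq (hF : ∃ a : F, a ≠ 0 ∧ a ≠ 1) : commutator (OG F) = E0 F := le_antisymm comm_le_E0 (E0_le_comm hF)

end Cfsg.Agent.H04.O5
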