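import Cfsg.Agent.Lib.H04.O5.Ad

/-!
# `B₂(F)` is `PΩ₅(F)`, over every field with more than two elements
-/

set_option autoImplicit false
set_option linter.style.longLine false
set_option linter.unusedSimpArgs false
set_option linter.unusedSectionVars false
set_option linter.unusedVariables false
set_option maxRecDepth 100000

open Matrix Cfsg.Lie Cfsg.Agent.H04.Chev

namespace Cfsg.Agent.H04.O5

/-- A subgroup of a product projecting onto both factors, with kernels matching up to the centre. -/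
theorem iso_of_rel {G H : Type*} [Group G] [Group H] (R : Subgroup (G × H))
    (h1 : ∀ g, ∃ a, (g, a) ∈ R) (h2 : ∀ a, ∃ g, (g, a) ∈ R)
    (h3 : ∀ a, ((1 : G), a) ∈ R → a ∈ Subgroup.center H)
    (h4 : ∀ g a, (g, a) ∈ R → a ∈ Subgroup.center H → g = 1) :
    Nonempty (G ≃* H ⧸ Subgroup.center H) := by
  let π₁ : R →* G := (MonoidHom.fst G H).comp R.subtype
  let π₂ : R →* H ⧸ Subgroup.center H := (QuotientGroup.mk' (Subgroup.center H)).comp ((MonoidHom.snd G H).comp R.subtype)
  have s₁ : Function.Surjective π₁ := fun g => by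
    obtain ⟨a, ha⟩ := h1 g
    exact ⟨⟨(g, a), ha⟩, rfl⟩
  have s₂ : Function.Surjective π₂ := fun x => by
    obtain ⟨a, rfl⟩ := QuotientGroup.mk'_surjective _ x
    obtain ⟨g, hg⟩ := h2 a
    exact ⟨⟨(g, a), hg⟩, rfl⟩
  have hk : π₁.ker = π₂.ker := by
    ext ⟨⟨g, a⟩, h⟩
    simp only [MonoidHom.mem_ker]
    constructor
    · intro e
      have e' : g = 1 := e
      subst e'
      show (QuotientGroup.mk a : H ⧸ Subgroup.center H) = 1
      rw [QuotientGroup.eq_one_iff]
      exact h3 a h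
    · intro e
      have e' : (QuotientGroup.mk a : H ⧸ Subgroup.center H) = 1 := e
      rw [QuotientGroup.eq_one_iff] at e'
      exact h4 g a h e'
  exact ⟨(QuotientGroup.quotientKerEquivOfSurjective π₁ s₁).symm.trans ((QuotientGroup.quotientMulEquivOfEq hk).trans (QuotientGroup.quotientKerEquivOfSurjective π₂ s₂))⟩

section
variable {F : Type*} [Field F]

abbrev GD (F : Type*) [Field F] : Type _ := ↥(chevB2.group F)
abbrev OM (F : Type*) [Field F] : Type _ := ↥(commutator (OG F))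

/-- the sign in the field -/
noncomputable def sF (F : Type*) [Field F] (k : ℕ) : F := ((sg k : ℤ) : F)

lemma sg_sq : ∀ k < 8, sg k * sg k = 1 := by decide

lemma sF_sq {k : ℕ} (hk : k < 8) : sF F k * sF F k = 1 := by
  unfold sF
  rw [← Int.cast_mul, sg_sq k hk, Int.cast_one]

/-- the vector of a root -/
noncomputable def uF (F : Type*) [Field F] (k : ℕ) : Ix → F :=
  match (rt k).1 with
  | some p => bv F p
  | none => b0 F

lemma rt_ok : ∀ k < 8, ∀ p, (rt k).1 = some p → ok p (lK k) := by decide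

lemma uF_w {k : ℕ} (hk : k < 8) (c : F) : (c • uF F k) (.inr (op (lK k))) = 0 := by
  rcases h : (rt k).1 with _ | p
  · simp only [uF, h]
    exact smul_b0_ap _ _
  · simp only [uF, h]
    exact smul_bv_ap _ (fun e => (rt_ok k hk p h).2 e.symm)

/-- the Siegel transformation of a root -/
noncomputable def EE (k : ℕ) (t : F) : OG F := SS (lK k) ((sF F k * t) • uF F k)

lemma uF_cast (k : ℕ) (a : Ix) : uF F k a = ((uZ k a : ℤ) : F) := by
  rcases h : (rt k).1 with _ | p
  · simp only [uF, uZ, h]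
    by_cases e : a = .inl ()
    · subst e
      simp
    · rcases a with ⟨⟩ | a
      · exact absurd rfl e
      · simp
  · simp only [uF, uZ, h]
    by_cases e : a = .inr p
    · subst e
      simp
    · simp [bv, Pi.single_apply, e]

lemma bu_cast (k : ℕ) (b : Ix) : B (Pi.single b 1) (uF F k) = ((buZ k b : ℤ) : F) := by
  rcases h : (rt k).1 with _ | p
  · simp only [uF, buZ, h]
    rw [B_b0]
    by_cases e : b = .inl ()
    · subst e
      simp
    · simp [e, Pi.single_apply, Ne.symm e]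
  · simp only [uF, buZ, h]
    rw [B_bv]
    by_cases e : b = .inr (op p)
    · subst e
      simp
    · simp [e, Pi.single_apply, Ne.symm e]

lemma qu_cast (k : ℕ) : Q (uF F k) = ((quZ k : ℤ) : F) := by
  rcases h : (rt k).1 with _ | p
  · simp only [uF, quZ, h]
    simp [Q_b0]
  · simp only [uF, quZ, h]
    simp [Q_bv]

lemma EE_mat {k : ℕ} (hk : k < 8) (t : F) :
    (((EE k t : OG F).1 : Matrix.GeneralLinearGroup Ix F) : Matrix Ix Ix F) = 1 + t • iotaF F k + t ^ 2 • PF F k := by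
  ext a b
  have e0 : act (EE k t) (Pi.single b 1) a = (((EE k t : OG F).1 : Matrix.GeneralLinearGroup Ix F) : Matrix Ix Ix F) a b := by
    simp [act]
  rw [← e0]
  unfold EE
  rw [act_SS (uF_w hk _), Ew_ap, B_smul_right, Q_smul, bu_cast, qu_cast]
  have q1 : (Pi.single b 1 : Ix → F) (.inr (op (lK k))) = ((dd b (.inr (op (lK k))) : ℤ) : F) := by
    by_cases e : b = .inr (op (lK k))
    · subst e
      simp [dd]
    · simp [dd, e, Pi.single_apply, Ne.symm e]
  have q5 : bv F (lK k) a = ((dd a (.inr (lK k)) : ℤ) : F) := by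
    by_cases e : a = .inr (lK k)
    · subst e
      simp [dd]
    · simp [dd, e, bv, Pi.single_apply]
  have q6 : (Pi.single b 1 : Ix → F) a = (1 : Matrix Ix Ix F) a b := by
    simp [Pi.single_apply, Matrix.one_apply]
  have hs := sF_sq (F := F) hk
  have hnz : ∀ c : ℕ, c < 8 → iotaF F c a b = ((sg c : ℤ) : F) * (((uZ c a : ℤ) : F) * ((dd b (.inr (op (lK c))) : ℤ) : F) - ((dd a (.inr (lK c)) : ℤ) : F) * ((buZ c b : ℤ) : F)) := by
    intro c hc
    rw [iotaF, phi_apply]
    simp only [iotaZ, hc, if_true]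
    push_cast
    rfl
  have hp : PF F k a b = -(((quZ k : ℤ) : F) * ((dd a (.inr (lK k)) : ℤ) : F) * ((dd b (.inr (op (lK k))) : ℤ) : F)) := by
    rw [PF, phi_apply]
    simp only [PZ]
    push_cast
    rfl
  simp only [Matrix.add_apply, Matrix.smul_apply, smul_eq_mul, Pi.smul_apply]
  rw [q1, q5, q6, hnz k hk, hp, uF_cast]
  unfold sF at hs ⊢
  generalize ((sg k : ℤ) : F) = s at hs ⊢
  generalize ((dd b (.inr (op (lK k))) : ℤ) : F) = α
  generalize ((dd a (.inr (lK k)) : ℤ) : F) = δ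
  generalize ((quZ k : ℤ) : F) = q
  generalize ((buZ k b : ℤ) : F) = bu
  generalize ((uZ k a : ℤ) : F) = u
  linear_combination (-(t ^ 2 * q * α * δ)) * hs

lemma EE_mem {k : ℕ} (hk : k < 8) (t : F) (hF : ∃ a : F, a ≠ 0 ∧ a ≠ 1) : EE k t ∈ commutator (OG F) := by
  rw [omega_eq hF]
  exact SS_mem (uF_w hk _)

lemma EE_neg_mul {k : ℕ} (hk : k < 8) (t : F) : EE k (-t) * EE k t = 1 := by
  unfold EE
  rw [SS_mul (uF_w hk _) (uF_w hk _), ← add_smul, mul_neg, neg_add_cancel, zero_smul, SS_zero]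

lemma XL_swap {i j : La} (h : ok i j) (c : F) : XL j i c = XL i j (-c) := by
  apply iso_ext
  intro v
  unfold XL
  rw [act_SS (XL_w h.symm c), act_SS (XL_w h (-c))]
  funext k
  rw [Ew_ap, Ew_ap, B_smul_right, B_smul_right, Q_smul, Q_smul, Q_bv, Q_bv, B_bv, B_bv]
  simp only [Pi.smul_apply, smul_eq_mul]
  ring

lemma short_tab : ∀ l : La, ∃ k, k < 8 ∧ (rt k).1 = none ∧ lK k = l := by decide

lemma long_tab : ∀ j l : La, ok j l → ∃ k, k < 8 ∧ (((rt k).1 = some j ∧ lK k = l) ∨ ((rt k).1 = some l ∧ lK k = j)) := by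
  decide

lemma root_as_EE {x : OG F} (hx : RootMap x) : ∃ k, k < 8 ∧ ∃ t : F, x = EE k t := by
  rcases hx with ⟨l, c, rfl⟩ | ⟨j, l, c, h, rfl⟩
  · obtain ⟨k, hk, h1, rfl⟩ := short_tab l
    refine ⟨k, hk, sF F k * c, ?_⟩
    unfold EE
    rw [← mul_assoc, sF_sq hk, one_mul]
    simp only [uF, h1]
  · obtain ⟨k, hk, ⟨h1, rfl⟩ | ⟨h1, rfl⟩⟩ := long_tab j l h
    · refine ⟨k, hk, sF F k * c, ?_⟩
      unfold EE
      rw [← mul_assoc, sF_sq hk, one_mul]
      simp only [uF, h1]
    · refine ⟨k, hk, sF F k * (-c), ?_⟩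
      unfold EE
      rw [← mul_assoc, sF_sq hk, one_mul]
      simp only [uF, h1]
      exact XL_swap h.symm c

/-- the matrix of an element of the Chevalley group -/
def gm (g : GD F) : Matrix chevB2.Idx chevB2.Idx F := ((g : Matrix.GeneralLinearGroup chevB2.Idx F) : Matrix chevB2.Idx chevB2.Idx F)

/-- the matrix of an element of `Ω` -/
def am (a : OM F) : Matrix Ix Ix F := (((a : OG F).1 : Matrix.GeneralLinearGroup Ix F) : Matrix Ix Ix F)

@[simp] lemma gm_one : gm (1 : GD F) = 1 := rfl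
@[simp] lemma am_one : am (1 : OM F) = 1 := rfl
lemma gm_mul (g h : GD F) : gm (g * h) = gm g * gm h := rfl
lemma am_mul (a b : OM F) : am (a * b) = am a * am b := rfl

lemma am_inv_mul (a : OM F) : am a⁻¹ * am a = 1 := by
  rw [← am_mul, inv_mul_cancel, am_one]

lemma am_mul_inv (a : OM F) : am a * am a⁻¹ = 1 := by
  rw [← am_mul, mul_inv_cancel, am_one]

lemma gm_mul_inv (g : GD F) : gm g * gm g⁻¹ = 1 := by
  rw [← gm_mul, mul_inv_cancel, gm_one]

lemma gm_inv_mul (g : GD F) : gm g⁻¹ * gm g = 1 := by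
  rw [← gm_mul, inv_mul_cancel, gm_one]

/-- the root element in the Chevalley group -/
noncomputable def xD (k : ℕ) (hk : k < 8) (t : F) : GD F := ⟨xG TB2.checks k t, xG_mem_group TB2.checks hk t⟩

variable (hF : ∃ a : F, a ≠ 0 ∧ a ≠ 1)

/-- the element of `Ω` of a root -/
noncomputable def eD (k : ℕ) (hk : k < 8) (t : F) : OM F := ⟨EE k t, EE_mem hk t hF⟩

/-- the subgroup of pairs -/
noncomputable def RR : Subgroup (GD F × OM F) :=
  Subgroup.closure {pr | ∃ (k : ℕ) (hk : k < 8) (t : F), pr = (xD k hk t, eD hF k hk t)}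

lemma gm_xD {k : ℕ} (hk : k < 8) (t : F) : gm (xD k hk t) = chevB2.xMat F ⟨k, hk⟩ t :=
  x_eq_xMat chevB2 k hk t

lemma am_eD {k : ℕ} (hk : k < 8) (t : F) : am (eD hF k hk t) = 1 + t • iotaF F k + t ^ 2 • PF F k := EE_mat hk t

lemma rel_gen {k : ℕ} (hk : k < 8) (t : F) (v : chevB2.Idx → F) :
    am (eD hF k hk t) * iot v = iot (gm (xD k hk t) *ᵥ v) * am (eD hF k hk t) := by
  have h1 : (1 + (-t) • iotaF F k + t ^ 2 • PF F k) * (1 + t • iotaF F k + t ^ 2 • PF F k) = 1 := by
    have e1 := am_eD hF hk (-t)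
    rw [neg_sq] at e1
    rw [← e1, ← am_eD hF hk t, ← am_mul]
    have : eD hF k hk (-t) * eD hF k hk t = (1 : OM F) := Subtype.ext (EE_neg_mul hk t)
    rw [this, am_one]
  rw [gm_xD, iot_x, am_eD]
  simp only []
  rw [mul_assoc ((1 + t • iotaF F k + t ^ 2 • PF F k) * iot v), h1, mul_one]

/-- the relation of the pairs -/
theorem RR_rel {g : GD F} {a : OM F} (h : (g, a) ∈ RR hF) (v : chevB2.Idx → F) :
    am a * iot v = iot (gm g *ᵥ v) * am a := by
  have key : ∀ pr ∈ RR hF, ∀ v : chevB2.Idx → F, am pr.2 * iot v = iot (gm pr.1 *ᵥ v) * am pr.2 := by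
    intro pr hpr
    induction hpr using Subgroup.closure_induction with
    | mem x hx =>
      obtain ⟨k, hk, t, rfl⟩ := hx
      exact rel_gen hF hk t
    | one =>
      intro v
      simp
    | mul x y _ _ ihx ihy =>
      intro v
      have e1 : (x * y).2 = x.2 * y.2 := rfl
      have e2 : (x * y).1 = x.1 * y.1 := rfl
      rw [e1, e2, am_mul, gm_mul, mul_assoc, ihy v, ← mul_assoc, ihx, Matrix.mulVec_mulVec, mul_assoc]
    | inv x _ ih =>
      intro v
      have e1 : (x⁻¹).2 = x.2⁻¹ := rfl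
      have e2 : (x⁻¹).1 = x.1⁻¹ := rfl
      rw [e1, e2]
      have h1 := ih (gm x.1⁻¹ *ᵥ v)
      rw [Matrix.mulVec_mulVec, gm_mul_inv, Matrix.one_mulVec] at h1
      calc am x.2⁻¹ * iot v = am x.2⁻¹ * (iot v * am x.2) * am x.2⁻¹ := by
            rw [mul_assoc (am x.2⁻¹), mul_assoc (iot v), am_mul_inv, mul_one]
        _ = am x.2⁻¹ * (am x.2 * iot (gm x.1⁻¹ *ᵥ v)) * am x.2⁻¹ := by rw [h1]
        _ = iot (gm x.1⁻¹ *ᵥ v) * am x.2⁻¹ := by
            rw [← mul_assoc (am x.2⁻¹), am_inv_mul, one_mul]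
  exact key (g, a) h v

lemma RR_gen {k : ℕ} (hk : k < 8) (t : F) : (xD k hk t, eD hF k hk t) ∈ RR hF :=
  Subgroup.subset_closure ⟨k, hk, t, rfl⟩

theorem RR_left (g : GD F) : ∃ a, (g, a) ∈ RR hF := by
  have key : ∀ x (hx : x ∈ Subgroup.closure {g : Matrix.GeneralLinearGroup chevB2.Idx F | ∃ (r : Fin chevB2.nroots) (t : F), (g : Matrix chevB2.Idx chevB2.Idx F) = chevB2.xMat F r t}),
      ∃ a, (((⟨x, hx⟩ : GD F)), a) ∈ RR hF := by
    intro x hx
    induction hx using Subgroup.closure_induction with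
    | mem x hx =>
      obtain ⟨r, t, hr⟩ := hx
      have hk : r.val < 8 := r.isLt
      refine ⟨eD hF r.val hk t, ?_⟩
      have e : x = xG TB2.checks r.val t := Units.ext (by
        rw [xG_val, hr, x_eq_xMat chevB2 r.val r.isLt])
      subst e
      exact RR_gen hF hk t
    | one => exact ⟨1, one_mem _⟩
    | mul x y _ _ ihx ihy =>
      obtain ⟨a, ha⟩ := ihx
      obtain ⟨b, hb⟩ := ihy
      exact ⟨a * b, mul_mem ha hb⟩
    | inv x _ ih =>
      obtain ⟨a, ha⟩ := ih
      exact ⟨a⁻¹, inv_mem ha⟩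
  exact key g.1 g.2

theorem RR_right (a : OM F) : ∃ g, (g, a) ∈ RR hF := by
  have key : ∀ x (hx : x ∈ E0 F), ∃ (h : x ∈ commutator (OG F)) (g : GD F), (g, (⟨x, h⟩ : OM F)) ∈ RR hF := by
    intro x hx
    unfold E0 at hx
    induction hx using Subgroup.closure_induction with
    | mem x hx =>
      obtain ⟨k, hk, t, rfl⟩ := root_as_EE hx
      exact ⟨EE_mem hk t hF, _, RR_gen hF hk t⟩
    | one => exact ⟨one_mem _, 1, one_mem _⟩
    | mul x y _ _ ihx ihy =>
      obtain ⟨h1, g1, hg1⟩ := ihx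
      obtain ⟨h2, g2, hg2⟩ := ihy
      exact ⟨mul_mem h1 h2, g1 * g2, mul_mem hg1 hg2⟩
    | inv x _ ih =>
      obtain ⟨h1, g1, hg1⟩ := ih
      exact ⟨inv_mem h1, g1⁻¹, inv_mem hg1⟩
  have ha : a.1 ∈ E0 F := by
    rw [← omega_eq hF]
    exact a.2
  obtain ⟨_, g, hg⟩ := key a.1 ha
  exact ⟨g, hg⟩

lemma iot_root {k : ℕ} (hk : k < 8) : iot (Pi.single (Sum.inr ⟨k, hk⟩) (1 : F)) = iotaF F k := by
  rw [iot_single]
  rfl

include hF in
/-- the part of degree two of a root element is a product of images of root vectors -/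
lemma PF_eq {k : ℕ} (hk : k < 8) :
    PF F k = (((prT k).2.2 : ℤ) : F) • (iotaF F (prT k).1 * iotaF F (prT k).2.1) := by
  have h := chkP_spec hk
  unfold iotaF PF
  rw [← map_mul]
  have e : PZ k = (prT k).2.2 • (iotaZ (prT k).1 * iotaZ (prT k).2.1) := by
    ext a b
    rw [Matrix.smul_apply, mul_eq_mulZ, smul_eq_mul]
    exact h.2.2.2.2 a b
  rw [e]
  ext a b
  rw [Matrix.smul_apply, phi_apply, phi_apply, Matrix.smul_apply, smul_eq_mul, smul_eq_mul, Int.cast_mul]

include hF in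
/-- commuting with the images of the root vectors gives commuting with the Siegel maps -/
lemma comm_EE {a : OM F} (h : ∀ k, k < 8 → Commute (am a) (iotaF F k)) {k : ℕ} (hk : k < 8) (t : F) :
    a.1 * EE k t = EE k t * a.1 := by
  apply Subtype.ext
  apply Units.ext
  change am a * _ = _ * am a
  have h1 := chkP_spec hk
  have h2 : Commute (am a) (PF F k) := by
    rw [PF_eq hF hk]
    exact ((h _ h1.1).mul_right (h _ h1.2.2.1)).smul_right _
  rw [EE_mat hk]
  exact (((Commute.one_right _).add_right ((h k hk).smul_right t)).add_right (h2.smul_right _)).eq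

theorem RR_center {a : OM F} (h : ((1 : GD F), a) ∈ RR hF) : a ∈ Subgroup.center (OM F) := by
  have h1 : ∀ k, k < 8 → Commute (am a) (iotaF F k) := by
    intro k hk
    have := RR_rel hF h (Pi.single (Sum.inr ⟨k, hk⟩) (1 : F))
    rw [gm_one, Matrix.one_mulVec, iot_root hk] at this
    exact this
  have h2 : E0 F ≤ Subgroup.centralizer {a.1} := by
    unfold E0
    apply (Subgroup.closure_le _).mpr
    intro x hx
    obtain ⟨k, hk, t, rfl⟩ := root_as_EE hx
    rw [SetLike.mem_coe, Subgroup.mem_centralizer_iff]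
    rintro _ rfl
    exact comm_EE hF h1 hk t
  rw [Subgroup.mem_center_iff]
  intro b
  apply Subtype.ext
  have hb : b.1 ∈ E0 F := by
    rw [← omega_eq hF]
    exact b.2
  have := Subgroup.mem_centralizer_iff.mp (h2 hb) a.1 rfl
  exact this.symm

/-- the kernel of the map `iot`, as a subgroup -/
def KK (F : Type*) [Field F] : Subgroup (GD F) where
  carrier := {g | ∀ v : chevB2.Idx → F, iot (gm g *ᵥ v) = iot v}
  mul_mem' := by
    intro g h hg hh v
    rw [gm_mul, ← Matrix.mulVec_mulVec, hg, hh]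
  one_mem' := by
    intro v
    rw [gm_one, Matrix.one_mulVec]
  inv_mem' := by
    intro g hg v
    have := hg (gm g⁻¹ *ᵥ v)
    rw [Matrix.mulVec_mulVec, gm_mul_inv, Matrix.one_mulVec] at this
    exact this.symm

lemma am_cancel {a : OM F} {A B : Matrix Ix Ix F} (h : A * am a = B * am a) : A = B := by
  have := congrArg (· * am a⁻¹) h
  simp only [mul_assoc, am_mul_inv, mul_one] at this
  exact this

include hF in
lemma KK_normal : (KK F).Normal := by
  constructor
  intro g hg h v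
  obtain ⟨b, hb⟩ := RR_left hF h
  have h1 := RR_rel hF hb (gm g *ᵥ (gm h⁻¹ *ᵥ v))
  have h2 := RR_rel hF hb (gm h⁻¹ *ᵥ v)
  rw [Matrix.mulVec_mulVec (v := v) (gm h) (gm h⁻¹), gm_mul_inv, Matrix.one_mulVec] at h2
  rw [hg] at h1
  have e : gm (h * g * h⁻¹) *ᵥ v = gm h *ᵥ gm g *ᵥ gm h⁻¹ *ᵥ v := by
    rw [gm_mul, gm_mul, Matrix.mulVec_mulVec, Matrix.mulVec_mulVec, mul_assoc]
  rw [e]
  apply am_cancel (a := b)
  rw [← h1, h2]

include hF in
lemma simple_B2 : IsSimpleGroup (GD F) :=
  (simple_of TB2.checks TB2.checks2 TB2.checks3 TB2.checks4 (fun _ => hF)).1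

lemma comm_int : (iotaZ 3 * iotaZ 4 - iotaZ 4 * iotaZ 3) (Sum.inr il0) (Sum.inr il0) = -1 := by
  rw [Matrix.sub_apply, mul_eq_mulZ, mul_eq_mulZ]
  decide

lemma not_comm : iotaF F 3 * iotaF F 4 ≠ iotaF F 4 * iotaF F 3 := by
  intro h
  have h1 : phi F (iotaZ 3 * iotaZ 4 - iotaZ 4 * iotaZ 3) = 0 := by
    rw [map_sub, map_mul, map_mul]
    exact sub_eq_zero.mpr h
  have h2 := congrFun (congrFun h1 (Sum.inr il0)) (Sum.inr il0)
  rw [phi_apply, comm_int] at h2
  simp at h2

lemma PZ_3 : PZ 3 = 0 := by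
  ext a b
  simp [PZ, quZ, rt]

include hF in
theorem KK_bot : KK F = ⊥ := by
  have := simple_B2 hF
  rcases IsSimpleGroup.eq_bot_or_eq_top_of_normal (KK F) (KK_normal hF) with h | h
  · exact h
  · exfalso
    have h0 : xD 3 (by decide) (1 : F) ∈ KK F := by
      rw [h]
      exact Subgroup.mem_top _
    have h1 := rel_gen hF (k := 3) (by decide) (1 : F) (Pi.single (Sum.inr ⟨4, by decide⟩) (1 : F))
    rw [h0, am_eD, iot_root (by decide)] at h1
    have hP : PF F 3 = 0 := by
      unfold PF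
      rw [PZ_3, map_zero]
    rw [hP] at h1
    apply not_comm (F := F)
    simpa [mul_add, add_mul] using h1

lemma simL_lt : ∀ i < 2, simL i < 8 ∧ 7 - simL i < 8 := by decide

include hF in
lemma commute_iota {a : OM F} (h : a ∈ Subgroup.center (OM F)) {c : ℕ} (hc : c < 10) : Commute (am a) (iotaF F c) := by
  have h1 : ∀ k, k < 8 → Commute (am a) (1 + iotaF F k + PF F k) := by
    intro k hk
    have h2 := Subgroup.mem_center_iff.mp h (eD hF k hk 1)
    have h3 := congrArg am h2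
    rw [am_mul, am_mul, am_eD, one_smul, one_pow, one_smul] at h3
    exact h3.symm
  have hl : ∀ k, k < 8 → (rt k).1 ≠ none → Commute (am a) (iotaF F k) := by
    intro k hk hn
    have h0 : PF F k = 0 := by
      have : PZ k = 0 := by
        ext a b
        rcases e : (rt k).1 with _ | p
        · exact absurd e hn
        · simp [PZ, quZ, e]
      unfold PF
      rw [this, map_zero]
    have h4 := h1 k hk
    rw [h0, add_zero] at h4
    have h5 := h4.add_right ((Commute.one_right (am a)).neg_right)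
    rw [add_comm, ← add_assoc, neg_add_cancel, zero_add] at h5
    exact h5
  have hall : ∀ k, k < 8 → Commute (am a) (iotaF F k) := by
    intro k hk
    have h6 := chkP_spec hk
    have hP : Commute (am a) (PF F k) := by
      rw [PF_eq hF hk]
      exact ((hl _ h6.1 h6.2.1).mul_right (hl _ h6.2.2.1 h6.2.2.2.1)).smul_right _
    have h7 := ((h1 k hk).sub_right hP).sub_right (Commute.one_right _)
    have e : 1 + iotaF F k + PF F k - PF F k - 1 = iotaF F k := by abel
    rwa [e] at h7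
  by_cases hc2 : c < 8
  · exact hall c hc2
  · obtain ⟨i, rfl⟩ : ∃ i, c = 8 + i := ⟨c - 8, by omega⟩
    have hi : i < 2 := by omega
    have hs : simL i < 8 ∧ 7 - simL i < 8 := simL_lt i hi
    have e : iotaF F (8 + i) = iotaF F (simL i) * iotaF F (7 - simL i) - iotaF F (7 - simL i) * iotaF F (simL i) := by
      unfold iotaF
      rw [← map_mul, ← map_mul, ← map_sub]
      congr 1
      ext a b
      rw [Matrix.sub_apply, mul_eq_mulZ, mul_eq_mulZ]
      exact chkH_spec hi a b
    rw [e]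
    exact Commute.sub_right ((hall _ hs.1).mul_right (hall _ hs.2)) ((hall _ hs.2).mul_right (hall _ hs.1))

theorem RR_inj {g : GD F} {a : OM F} (h : (g, a) ∈ RR hF) (ha : a ∈ Subgroup.center (OM F)) : g = 1 := by
  have h1 : g ∈ KK F := by
    intro v
    apply am_cancel (a := a)
    rw [← RR_rel hF h v]
    have h2 : Commute (am a) (iot v) := by
      unfold iot
      apply Commute.sum_right
      intro i _
      exact (commute_iota hF ha (code_lt chevB2 i)).smul_right _
    exact h2.eq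
  rw [KK_bot hF] at h1
  exact Subgroup.mem_bot.mp h1

include hF in
/-- **`B₂(F) ≅ PΩ₅(F)`** -/
theorem b2_iso : Nonempty (↥(chevB2.group F) ≃* Cfsg.POmega F (Cfsg.quadFormOdd 2 F)) :=
  iso_of_rel (RR hF) (RR_left hF) (RR_right hF) (fun _ h => RR_center hF h) (fun _ _ h ha => RR_inj hF h ha)

end

end Cfsg.Agent.H04.O5
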